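import Cfsg.Prelude.Def_QuasithinSetup

/-! Coordinates for a group with Sylow 2-subgroup `D₈ ≀ 2` inside a 2-local `S₄ ≀ 2`. -/

set_option autoImplicit false

namespace Cfsg.Agent.QW

open Subgroup

abbrev D : Type := DihedralGroup 4
abbrev z : D := .r 2
abbrev a : D := .sr 0
abbrev b : D := .sr 1

/-- the four-group `{1, z, a, a z}` -/
abbrev InA (x : D) : Prop := x = 1 ∨ x = z ∨ x = a ∨ x = a * z
/-- the four-group `{1, z, b, b z}` -/
abbrev InB (x : D) : Prop := x = 1 ∨ x = z ∨ x = b ∨ x = b * z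

variable {G : Type*} [Group G]

/-- `j` embeds `D₈ × D₈`, `s` swaps the factors, `r` of order 3 extends the first factor to `S₄` -/
structure Cx (j : D × D →* G) (s r : G) (P : Sylow 2 G) : Prop where
  inj : Function.Injective j
  ss : s * s = 1
  sw : ∀ x y, s * j (x, y) * s⁻¹ = j (y, x)
  sn : s ∉ j.range
  r3 : orderOf r = 3
  rc : ∀ y, r * j (1, y) = j (1, y) * r
  rr : r * (s * r * s⁻¹) = (s * r * s⁻¹) * r
  rz : r * j (z, 1) * r⁻¹ = j (a, 1)
  ra : r * j (a, 1) * r⁻¹ = j (a * z, 1)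
  rb : j (b, 1) * r * (j (b, 1))⁻¹ = r⁻¹
  syl : ∀ g, g ∈ (P : Subgroup G) ↔ g ∈ j.range ∨ g * s ∈ j.range
  nA : ∀ g, (∀ x y, InA x → InA y → ∃ x' y', InA x' ∧ InA y' ∧ g * j (x, y) * g⁻¹ = j (x', y')) →
    g ∈ normalizer (j.range : Set G) → g ∈ (P : Subgroup G)

/-- `X` contains `T₀ = j.range` and meets the Sylow subgroup in it -/
def Mt (j : D × D →* G) (s : G) (X : Subgroup G) : Prop := j.range ≤ X ∧ s ∉ X

/-- 2-subgroups of `X` are conjugate in `X` into `T₀` -/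
def Cj (j : D × D →* G) (X : Subgroup G) : Prop :=
  ∀ R : Subgroup G, R ≤ X → IsPGroup 2 R → ∃ h ∈ X, ∀ g ∈ R, h * g * h⁻¹ ∈ j.range

/-- the output of the Sylow analysis -/
structure Nt (j : D × D →* G) (s : G) : Prop where
  cj : ∀ X, Mt j s X → Cj j X
  tz : ¬ IsConj (j (z, 1)) (j (z, z))
  nB : ∀ g : G, (∀ x y, InB x → InB y → g * j (x, y) * g⁻¹ ∈ j.range) →
    ∀ x y, InB x → InB y → ∃ x' y', InB x' ∧ InB y' ∧ g * j (x, y) * g⁻¹ = j (x', y')

/-- two centralizers -/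
structure Ce (j : D × D →* G) : Prop where
  cE : ∀ g : G, g * j (z, 1) = j (z, 1) * g → g * j (a, 1) = j (a, 1) * g → g * j (1, z) = j (1, z) * g →
    ∃ x y, InA x ∧ g = j (x, y)
  cB : ∀ g : G, (∀ x y, InB x → InB y → g * j (x, y) = j (x, y) * g) → ∃ x y, InB x ∧ InB y ∧ g = j (x, y)

end Cfsg.Agent.QW
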