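import Cfsg.Agent.QW.A
import Cfsg.Agent.H9.PCons

/-! Two centralizers in a group of even characteristic with a 2-local `S₄ ≀ 2`. -/

set_option autoImplicit false

namespace Cfsg.Agent.QW

open Subgroup

variable {G : Type*} [Group G] [Finite G] {j : D × D →* G} {s r : G} {P : Sylow 2 G}

namespace PCE

theorem inT (h : Cx j s r P) {g : G} (hg : g ∈ (P : Subgroup G)) (c : j (z, 1) * g = g * j (z, 1)) :
    g ∈ j.range := ((h.syl g).1 hg).resolve_right fun ⟨q, hq⟩ => by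
  have h1 : g * s * j (1, z) = j (z, 1) * (g * s) := by
    rw [← mul_assoc, c, ← h.sw 1 z]; group
  rw [← hq, ← map_mul, ← map_mul] at h1
  exact (by decide : ∀ q : D × D, q * (1, z) ≠ (z, 1) * q) q (h.inj h1)

theorem core (h : Cx j s r P) (n : Nt j s) (he : Cfsg.IsOfEvenCharacteristic G)
    (E : Subgroup (D × D)) [hE : E.Normal] (h1 : (z, 1) ∈ E) (h2 : (z, z) ∈ E)
    (H : ∀ U : Subgroup G, U ≤ j.range ⊓ centralizer (E.map j : Set G) →
      ∀ y ∈ centralizer (E.map j : Set G), y ∈ normalizer (U : Set G) → ∀ u ∈ U,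
        y ^ 4 * u = u * y ^ 4) : centralizer (E.map j : Set G) ≤ j.range := by
  have pD : IsPGroup 2 (D × D) := IsPGroup.of_card (n := 6) (by
    rw [Nat.card_prod, DihedralGroup.nat_card]; norm_num)
  have pT : IsPGroup 2 j.range := pD.of_surjective _ j.rangeRestrict_surjective
  have TP : j.range ≤ P := fun g hg => (h.syl g).2 (Or.inl hg)
  have cz : ∀ g : G, g * j (z, z) = j (z, z) * g → g ∈ normalizer (zpowers (j (z, z)) : Set G) :=
    fun g e => centralizer_le_normalizer _ (mem_centralizer_iff.2 fun _ ⟨k, hk⟩ =>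
      hk ▸ ((show Commute g _ from e).zpow_right k).symm.eq)
  have cT : ∀ g ∈ j.range, g * j (z, z) = j (z, z) * g := by
    rintro _ ⟨q, rfl⟩
    rw [← map_mul, ← map_mul, (by decide : ∀ q : D × D, q * (z, z) = (z, z) * q) q]
  have PC : (P : Subgroup G) ≤ normalizer (zpowers (j (z, z)) : Set G) := fun g hg => cz g (by
    rcases (h.syl g).1 hg with e | e
    · exact cT g e
    · have e1 := cT _ e
      rw [mul_assoc, mul_inv_eq_iff_eq_mul.1 (h.sw z z), ← mul_assoc, ← mul_assoc] at e1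
      exact mul_right_cancel e1)
  have hc := he _ ⟨zpowers (j (z, z)), pT.to_le (zpowers_le.2 ⟨_, rfl⟩), zpowers_ne_bot.2 fun e =>
    (by decide : ((z, z) : D × D) ≠ 1) (h.inj (e.trans (map_one j).symm)), rfl⟩ ⟨P, PC⟩
  set C := normalizer (zpowers (j (z, z)) : Set G)
  have pR : IsPGroup 2 (H10.OpOf 2 C) := H10.OpOf_isPGroup
  have nR : C ≤ normalizer (H10.OpOf 2 C : Set G) := H10.le_normalizer_OpOf le_normalizer
  have cR : ∀ x ∈ C, x ∈ centralizer (H10.OpOf 2 C : Set G) → x ∈ H10.OpOf 2 C := fun x hx e =>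
    ⟨⟨x, hx⟩, hc fun r hr => Subtype.ext (e r ⟨r, hr, rfl⟩), rfl⟩
  generalize H10.OpOf 2 C = R at pR nR cR
  have RP : R ≤ P := le_sup_left.trans (P.is_maximal'
    (pR.to_sup_of_normal_left' P.isPGroup' (PC.trans nR)) le_sup_right).le
  have ET : E.map j ≤ j.range := map_le_range j E
  have p2 : IsPGroup 2 (centralizer (E.map j : Set G)) := H9.isPGroup_of_forall_coprime fun y hy ho => by
    have yC : y ∈ C := cz y (hy _ ⟨_, h2, rfl⟩).symm
    have k := H (R ⊓ centralizer (E.map j : Set G)) (fun u hu =>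
      ⟨inT h (RP hu.1) (hu.2 _ ⟨_, h1, rfl⟩), hu.2⟩) y hy
      (inf_normalizer_le_normalizer_inf ⟨nR yC, le_normalizer hy⟩)
    have y4 : zpowers y ≤ zpowers (y ^ 4) := zpowers_le.2
      (mem_zpowers_pow_iff.2 (Nat.Coprime.pow_left 2 ho.symm))
    have := H1.le_centralizer_of_pxq (pT.to_le ET) (Q := zpowers y) (by rwa [Nat.card_zpowers]) pR
      (le_centralizer_iff.1 (zpowers_le.2 hy)) (ET.trans (TP.trans (PC.trans nR)))
      (zpowers_le.2 (nR yC)) (le_centralizer_iff.1 (y4.trans (zpowers_le.2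
        (mem_centralizer_iff.2 fun u hu => (k u hu).symm))))
    obtain ⟨l, hl⟩ := pR ⟨y, cR y yC (this (mem_zpowers y))⟩
    exact orderOf_eq_one_iff.1 (Nat.Coprime.eq_one_of_dvd (ho.pow_right l)
      (orderOf_dvd_of_pow_eq_one (congrArg Subtype.val hl)))
  have nT : j.range ≤ normalizer (centralizer (E.map j : Set G) : Set G) := by
    have t : ∀ (q : D × D) (c : G), c ∈ centralizer (E.map j : Set G) →
        j q * c * (j q)⁻¹ ∈ centralizer (E.map j : Set G) := by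
      rintro q c hc _ ⟨e, he, rfl⟩
      have := hc _ ⟨_, hE.conj_mem e he q⁻¹, rfl⟩
      simp only [map_mul, map_inv, inv_inv] at this
      calc _ = j q * ((j q)⁻¹ * j e * j q * c) * (j q)⁻¹ := by group
        _ = _ := by rw [this]; group
    rintro _ ⟨q, rfl⟩
    refine mem_normalizer_iff.2 fun c => ⟨t q c, fun hc => ?_⟩
    simpa [mul_assoc] using t q⁻¹ _ hc
  have TX : j.range ≤ centralizer {j (z, 1)} := by
    rintro _ ⟨q, rfl⟩
    rw [mem_centralizer_singleton_iff, ← map_mul, ← map_mul,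
      (by decide : ∀ q : D × D, q * (z, 1) = (z, 1) * q) q]
  obtain ⟨g, -, hg⟩ := n.cj (centralizer {j (z, 1)}) ⟨TX, fun e => by
      have := h.sw z 1
      rw [mem_centralizer_singleton_iff.1 e, mul_inv_cancel_right] at this
      exact (by decide : ((z, 1) : D × D) ≠ (1, z)) (h.inj this)⟩ _
    (sup_le (fun u hu => mem_centralizer_singleton_iff.2 (hu _ ⟨_, h1, rfl⟩).symm) TX)
    (p2.to_sup_of_normal_left' pT nT)
  refine le_sup_left.trans (eq_of_le_of_card_ge le_sup_right ?_).ge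
  exact Nat.card_le_card_of_injective (fun u => (⟨_, hg u.1 u.2⟩ : j.range)) fun u v e =>
    Subtype.ext (mul_left_cancel (mul_right_cancel (congrArg Subtype.val e)))

def EA : Subgroup (D × D) where
  carrier := {q | InA q.1 ∧ (q.2 = 1 ∨ q.2 = z)}
  one_mem' := by decide
  mul_mem' := fun {p q} hp hq => ⟨(by decide : ∀ x y : D, InA x → InA y → InA (x * y)) _ _ hp.1 hq.1,
    (by decide : ∀ x y : D, x = 1 ∨ x = z → y = 1 ∨ y = z → x * y = 1 ∨ x * y = z) _ _ hp.2 hq.2⟩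
  inv_mem' := fun {p} hp => ⟨(by decide : ∀ x : D, InA x → InA x⁻¹) _ hp.1,
    (by decide : ∀ x : D, x = 1 ∨ x = z → x⁻¹ = 1 ∨ x⁻¹ = z) _ hp.2⟩

def EB : Subgroup (D × D) where
  carrier := {q | InB q.1 ∧ InB q.2}
  one_mem' := by decide
  mul_mem' := fun {p q} hp hq => ⟨(by decide : ∀ x y : D, InB x → InB y → InB (x * y)) _ _ hp.1 hq.1,
    (by decide : ∀ x y : D, InB x → InB y → InB (x * y)) _ _ hp.2 hq.2⟩
  inv_mem' := fun {p} hp => ⟨(by decide : ∀ x : D, InB x → InB x⁻¹) _ hp.1,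
    (by decide : ∀ x : D, InB x → InB x⁻¹) _ hp.2⟩

instance : EA.Normal := ⟨fun p hp q =>
  ⟨(by decide : ∀ x y : D, InA x → InA (y * x * y⁻¹)) _ _ hp.1,
    (by decide : ∀ x y : D, x = 1 ∨ x = z → y * x * y⁻¹ = 1 ∨ y * x * y⁻¹ = z) _ _ hp.2⟩⟩

instance : EB.Normal := ⟨fun p hp q =>
  ⟨(by decide : ∀ x y : D, InB x → InB (y * x * y⁻¹)) _ _ hp.1,
    (by decide : ∀ x y : D, InB x → InB (y * x * y⁻¹)) _ _ hp.2⟩⟩

omit [Finite G] in
theorem cA (h : Cx j s r P) {q : D × D} (c : j q ∈ centralizer (EA.map j : Set G)) : InA q.1 := by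
  have := c _ ⟨(a, 1), ⟨by decide, by decide⟩, rfl⟩
  rw [← map_mul, ← map_mul] at this
  exact (by decide : ∀ x : D, a * x = x * a → InA x) _ (congrArg Prod.fst (h.inj this))

omit [Finite G] in
theorem cB (h : Cx j s r P) {q : D × D} (c : j q ∈ centralizer (EB.map j : Set G)) : q ∈ EB := by
  have := c _ ⟨(b, b), ⟨by decide, by decide⟩, rfl⟩
  rw [← map_mul, ← map_mul] at this
  exact ⟨(by decide : ∀ x : D, b * x = x * b → InB x) _ (congrArg Prod.fst (h.inj this)),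
    (by decide : ∀ x : D, b * x = x * b → InB x) _ (congrArg Prod.snd (h.inj this))⟩

omit [Finite G] in
theorem hA (h : Cx j s r P) (U : Subgroup G) (hU : U ≤ j.range ⊓ centralizer (EA.map j : Set G))
    (y : G) (hy : y ∈ centralizer (EA.map j : Set G)) (hn : y ∈ normalizer (U : Set G)) (u : G)
    (hu : u ∈ U) : y ^ 4 * u = u * y ^ 4 := by
  have fx : ∀ q ∈ EA, y * j q * y⁻¹ = j q := fun q hq => by
    rw [← hy _ ⟨q, hq, rfl⟩, mul_inv_cancel_right]
  have m1 := (mem_normalizer_iff.1 hn u).1 hu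
  have m2 := (mem_normalizer_iff.1 hn _).1 m1
  obtain ⟨⟨q0, rfl⟩, c0⟩ := hU hu
  obtain ⟨⟨q1, e1⟩, c1⟩ := hU m1
  rw [← e1] at m2 c1
  obtain ⟨⟨q2, e2⟩, c2⟩ := hU m2
  rw [← e2] at c2
  have a0 := cA h c0
  have a1 := cA h c1
  have a2 := cA h c2
  have up : ∀ {p q : D × D}, j q = y * j p * y⁻¹ → p ∈ EA → p.2 = q.2 := fun {p q} e hp =>
    congrArg Prod.snd (h.inj ((fx p hp).symm.trans e.symm))
  have dn : ∀ {p q : D × D}, j q = y * j p * y⁻¹ → q ∈ EA → p.2 = q.2 := fun {p q} e hq =>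
    congrArg Prod.snd (h.inj (mul_left_cancel (mul_right_cancel (e.symm.trans (fx q hq).symm))))
  have ml : ∀ {p q p' q' : D × D}, j q = y * j p * y⁻¹ → j q' = y * j p' * y⁻¹ →
      j (q * q') = y * j (p * p') * y⁻¹ := fun e e' => by rw [map_mul, map_mul, e, e']; group
  have sq : ∀ {p : D × D}, InA p.1 → p * p ∈ EA := fun {p} hp =>
    ⟨(by decide : ∀ x : D, InA x → InA (x * x)) _ hp, (by decide : ∀ x : D, x * x = 1 ∨ x * x = z) _⟩
  have hq : q0⁻¹ * q2 ∈ EA := ⟨(by decide : ∀ x y : D, InA x → InA y → InA (x⁻¹ * y)) _ _ a0 a2,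
    (by decide : ∀ d0 d1 d2 : D, d0 * d0 = d1 * d1 → d1 * d1 = d2 * d2 →
      d0 * d1 * (d0 * d1) = d1 * d2 * (d1 * d2) → (d0 = 1 ∨ d0 = z → d0 = d1) →
      (d1 = 1 ∨ d1 = z → d0 = d1) → (d1 = 1 ∨ d1 = z → d1 = d2) → (d2 = 1 ∨ d2 = z → d1 = d2) →
      d0⁻¹ * d2 = 1 ∨ d0⁻¹ * d2 = z) _ q1.2 _ (up (ml e1 e1) (sq a0)) (up (ml e2 e2) (sq a1))
      (up (ml (ml e1 e2) (ml e1 e2))
        (sq ((by decide : ∀ x y : D, InA x → InA y → InA (x * y)) _ _ a0 a1)))
      (fun e => up e1 ⟨a0, e⟩) (fun e => dn e1 ⟨a1, e⟩) (fun e => up e2 ⟨a1, e⟩)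
      (fun e => dn e2 ⟨a2, e⟩)⟩
  obtain ⟨e, rfl⟩ : ∃ e, q2 = q0 * e := ⟨_, (mul_inv_cancel_left _ _).symm⟩
  rw [inv_mul_cancel_left] at hq
  have ee : j e * j e = 1 := by
    rw [← map_mul, Prod.ext ((by decide : ∀ x : D, InA x → x * x = 1) _ hq.1)
      ((by decide : ∀ x : D, x = 1 ∨ x = z → x * x = 1) _ hq.2) (x := e * e) (y := 1), map_one]
  have k : y * (y * j q0 * y⁻¹) * y⁻¹ = j q0 * j e := by rw [← e1, ← e2, map_mul]
  have f := fx e hq
  rw [← mul_inv_eq_iff_eq_mul]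
  calc _ = y * (y * (y * (y * j q0 * y⁻¹) * y⁻¹) * y⁻¹) * y⁻¹ := by
        rw [show y ^ 4 = y * y * y * y by simp [pow_succ]]; group
    _ = y * (y * (j q0 * j e) * y⁻¹) * y⁻¹ := by rw [k]
    _ = y * (y * j q0 * y⁻¹) * y⁻¹ * (y * (y * j e * y⁻¹) * y⁻¹) := by group
    _ = _ := by rw [k, f, f, mul_assoc, ee, mul_one]

end PCE

open PCE in
theorem ce (h : Cx j s r P) (n : Nt j s) (he : Cfsg.IsOfEvenCharacteristic G) : Ce j := by
  refine ⟨fun g c1 c2 c3 => ?_, fun g c => ?_⟩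
  · have hg : g ∈ centralizer (EA.map j : Set G) := by
      rintro _ ⟨⟨x, y⟩, ⟨hx, hy⟩, rfl⟩
      have k1 : Commute g (j (x, 1)) := by
        rcases hx with rfl | rfl | rfl | rfl
        · exact (map_one j).symm ▸ Commute.one_right g
        · exact c1
        · exact c2
        · rw [show ((a * z, 1) : D × D) = (a, 1) * (z, 1) from rfl, map_mul]
          exact Commute.mul_right c2 c1
      have k2 : Commute g (j (1, y)) := by
        rcases hy with rfl | rfl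
        · exact (map_one j).symm ▸ Commute.one_right g
        · exact c3
      rw [show (x, y) = (x, 1) * (1, y) by simp, map_mul]
      exact (k1.mul_right k2).symm.eq
    obtain ⟨q, rfl⟩ := core h n he EA ⟨by decide, by decide⟩ ⟨by decide, by decide⟩ (hA h) hg
    exact ⟨q.1, q.2, cA h hg, rfl⟩
  · have hg : g ∈ centralizer (EB.map j : Set G) := by
      rintro _ ⟨⟨x, y⟩, ⟨hx, hy⟩, rfl⟩
      exact (c x y hx hy).symm
    obtain ⟨q, rfl⟩ := core h n he EB ⟨by decide, by decide⟩ ⟨by decide, by decide⟩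
      (fun U hU y hy _ u hu => by
        obtain ⟨⟨q, rfl⟩, c0⟩ := hU hu
        exact ((show Commute (j q) y from hy _ ⟨q, cB h c0, rfl⟩).pow_right 4).symm.eq) hg
    exact ⟨q.1, q.2, (cB h hg).1, (cB h hg).2, rfl⟩

end Cfsg.Agent.QW
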