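import Cfsg.Agent.QW.A

/-! The Sylow analysis around `T₀ = D₈ × D₈`. -/

set_option autoImplicit false
set_option synthInstance.maxSize 4000
set_option synthInstance.maxHeartbeats 200000
set_option maxRecDepth 4000

namespace Cfsg.Agent.QW

open Subgroup

namespace PN

/-- the non-central generator -/
def c (u : Bool) : D := bif u then a else b
/-- the two four-groups -/
abbrev In (u : Bool) (x : D) : Prop := x = 1 ∨ x = z ∨ x = c u ∨ x = c u * z

/-- the two four-groups as subgroups -/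
def Vd (u : Bool) : Subgroup D where
  carrier := {x | In u x}
  mul_mem' := fun {x y} => by
    simp only [Set.mem_setOf_eq]; revert u x y; decide
  one_mem' := .inl rfl
  inv_mem' := fun {x} => by
    simp only [Set.mem_setOf_eq]; revert u x; decide

instance (u : Bool) : DecidablePred (· ∈ Vd u) := fun x => inferInstanceAs (Decidable (In u x))

theorem card_Vd (u : Bool) : Nat.card (Vd u) = 4 := by
  rw [Nat.card_eq_fintype_card, Fintype.card_subtype]; revert u; decide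

theorem one (S : Set D) (h1 : ∀ x ∈ S, x * x = 1) (h2 : ∀ x ∈ S, ∀ y ∈ S, x * y = y * x) : ∃ u, ∀ x ∈ S, In u x := by
  by_cases h : ∀ x ∈ S, In true x
  · exact ⟨_, h⟩
  · push Not at h
    obtain ⟨x, hx, h⟩ := h
    refine ⟨false, fun y hy => ?_⟩
    exact (by decide : ∀ x y : D, x * x = 1 → y * y = 1 → x * y = y * x → ¬ In true x → In false y) x y (h1 x hx)
      (h1 y hy) (h2 x hx y hy) (by simpa using h)

variable {G : Type*} [Group G]

/-- the four elementary subgroups of order 16 -/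
def U (j : D × D →* G) (p : Bool × Bool) : Subgroup G := ((Vd p.1).prod (Vd p.2)).map j

theorem mem_U {j : D × D →* G} {p : Bool × Bool} {y : G} : y ∈ U j p ↔ ∃ x : D × D, In p.1 x.1 ∧ In p.2 x.2 ∧ j x = y :=
  ⟨fun ⟨x, h, e⟩ => ⟨x, h.1, h.2, e⟩, fun ⟨x, h1, h2, e⟩ => ⟨x, ⟨h1, h2⟩, e⟩⟩

/-- `g` moves `U p` onto `U q` -/
def Mv (j : D × D →* G) (g : G) (p q : Bool × Bool) : Prop := ∀ y, g * y * g⁻¹ ∈ U j q ↔ y ∈ U j p

theorem Mv.mul {j : D × D →* G} {g g' : G} {p q t : Bool × Bool} (h : Mv j g p q) (h' : Mv j g' q t) :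
    Mv j (g' * g) p t := fun y => by
  rw [← h y, ← h' (g * y * g⁻¹)]; simp only [mul_assoc, mul_inv_rev]

/-- conjugating into a self-normalising `p`-subgroup -/
theorem conj_into [Finite G] {p : ℕ} [Fact p.Prime] {X T R : Subgroup G} (hTX : T ≤ X) (hT : IsPGroup p T)
    (hN : ∀ g ∈ X, g ∈ normalizer (T : Set G) → g ∈ T) (hR : R ≤ X) (hp : IsPGroup p R) :
    ∃ h ∈ X, ∀ g ∈ R, h * g * h⁻¹ ∈ T := by
  obtain ⟨S, hS⟩ := (hT.of_equiv (subgroupOfEquivOfLe hTX).symm).exists_le_sylow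
  obtain ⟨S', hS'⟩ := (hp.of_equiv (subgroupOfEquivOfLe hR).symm).exists_le_sylow
  have : Group.IsNilpotent (S : Subgroup X) := S.2.isNilpotent
  have e : (T.subgroupOf X).subgroupOf (S : Subgroup X) = ⊤ := by
    refine normalizerCondition_iff_only_full_group_self_normalizing.1 normalizerCondition_of_isNilpotent _
      (le_antisymm (fun g hg => ?_) le_normalizer)
    refine hN _ g.1.2 (mem_normalizer_fintype fun n hn => ?_)
    exact (mem_normalizer_iff.1 hg ⟨⟨n, hTX hn⟩, hS hn⟩).1 hn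
  obtain ⟨h, hh⟩ := MulAction.exists_smul_eq X S' S
  refine ⟨h, h.2, fun g hg => ?_⟩
  have : h * ⟨g, hR hg⟩ * h⁻¹ ∈ (S : Subgroup X) := by
    rw [← hh]; exact smul_mem_pointwise_smul _ (MulAut.conj h) _ (hS' hg)
  exact subgroupOf_eq_top.1 e this

variable [Finite G] {j : D × D →* G} {s r : G} {P : Sylow 2 G}

theorem card_U (h : Cx j s r P) (p : Bool × Bool) : Nat.card (U j p) = 16 := by
  rw [U, card_map_of_injective h.inj, Nat.card_congr (prodEquiv _ _).toEquiv, Nat.card_prod, card_Vd, card_Vd]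

theorem e16 (h : Cx j s r P) {g : G} {p : Bool × Bool} (hg : ∀ y ∈ U j p, g * y * g⁻¹ ∈ j.range) : ∃ q, Mv j g p q := by
  let M := (U j p).map (MulAut.conj g).toMonoidHom
  have k : ∀ x ∈ M.comap j, ∀ y ∈ M.comap j, x * x = 1 ∧ x * y = y * x := by
    rintro x ⟨_, hx, e⟩ y ⟨_, hy, e'⟩
    obtain ⟨x', x1, x2, rfl⟩ := mem_U.1 hx
    obtain ⟨y', y1, y2, rfl⟩ := mem_U.1 hy
    have d : ∀ u, ∀ x y : D, In u x → In u y → x * x = 1 ∧ x * y = y * x := by decide
    have a1 : x' * x' = 1 := Prod.ext (d _ _ _ x1 y1).1 (d _ _ _ x2 y2).1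
    have a2 : x' * y' = y' * x' := Prod.ext (d _ _ _ x1 y1).2 (d _ _ _ x2 y2).2
    constructor <;> apply h.inj
    · rw [map_mul, ← e, ← map_mul, ← map_mul, a1]; simp
    · rw [map_mul, map_mul, ← e, ← e', ← map_mul, ← map_mul, ← map_mul, ← map_mul, a2]
  obtain ⟨u, hu⟩ := one (Prod.fst '' (M.comap j : Set (D × D))) (by
    rintro _ ⟨x, hx, rfl⟩; exact congrArg Prod.fst (k x hx x hx).1) (by
    rintro _ ⟨x, hx, rfl⟩ _ ⟨y, hy, rfl⟩; exact congrArg Prod.fst (k x hx y hy).2)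
  obtain ⟨v, hv⟩ := one (Prod.snd '' (M.comap j : Set (D × D))) (by
    rintro _ ⟨x, hx, rfl⟩; exact congrArg Prod.snd (k x hx x hx).1) (by
    rintro _ ⟨x, hx, rfl⟩ _ ⟨y, hy, rfl⟩; exact congrArg Prod.snd (k x hx y hy).2)
  have le : M ≤ U j (u, v) := by
    rintro _ ⟨y, hy, rfl⟩
    obtain ⟨x, hx⟩ := hg y hy
    have : x ∈ M.comap j := ⟨y, hy, hx.symm⟩
    exact mem_U.2 ⟨x, hu _ ⟨x, this, rfl⟩, hv _ ⟨x, this, rfl⟩, hx⟩
  have e : M = U j (u, v) := eq_of_le_of_card_ge le (by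
    rw [card_map_of_injective (MulAut.conj g).injective, card_U h, card_U h])
  refine ⟨(u, v), fun y => ?_⟩
  rw [← e]
  exact mem_map_iff_mem (f := (MulAut.conj g).toMonoidHom) (MulAut.conj g).injective

omit [Finite G] in
theorem jU (h : Cx j s r P) {p : Bool × Bool} {x : D × D} : j x ∈ U j p ↔ In p.1 x.1 ∧ In p.2 x.2 :=
  mem_map_iff_mem h.inj

omit [Finite G] in
theorem U_inj (h : Cx j s r P) {p q : Bool × Bool} (e : U j p ≤ U j q) : p = q := by
  have := (jU h (x := (c p.1, c p.2))).1 (e ((jU h).2 ⟨.inr (.inr (.inl rfl)), .inr (.inr (.inl rfl))⟩))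
  exact (by decide : ∀ p q : Bool × Bool, In q.1 (c p.1) ∧ In q.2 (c p.2) → p = q) p q this

omit [Finite G] in
theorem act (h : Cx j s r P) {g : G} (hg : g ∈ (P : Subgroup G)) : ∃ t : D × D,
    (g = j t ∧ ∀ x, g * j x * g⁻¹ = j (t * x * t⁻¹)) ∨ ∀ x, g * j x * g⁻¹ = j (t * x.swap * t⁻¹) := by
  rcases (h.syl g).1 hg with ⟨t, rfl⟩ | ⟨t, ht⟩
  · exact ⟨t, .inl ⟨rfl, fun x => by simp⟩⟩
  · refine ⟨t, .inr fun x => ?_⟩
    have e : g = j t * s := by rw [ht, mul_assoc, h.ss, mul_one]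
    have := h.sw x.1 x.2
    rw [e, map_mul, map_mul, map_inv, show x.swap = (x.2, x.1) from rfl, ← this]
    simp only [mul_assoc, mul_inv_rev]

omit [Finite G] in
theorem TP (h : Cx j s r P) : j.range ≤ (P : Subgroup G) := fun g hg => (h.syl g).2 (.inl hg)

omit [Finite G] in
theorem pT (h : Cx j s r P) : IsPGroup 2 j.range := P.2.to_le (TP h)

theorem nT (h : Cx j s r P) {n : G} (hn : n ∈ normalizer (j.range : Set G)) : n ∈ (P : Subgroup G) := by
  have k : ∀ n ∈ normalizer (j.range : Set G), n ^ 4 ∈ (P : Subgroup G) := by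
    intro n hn
    choose σ hσ using fun p => e16 h (g := n) (p := p) fun y hy => (mem_normalizer_iff.1 hn y).1 (map_le_range _ _ hy)
    have i1 : ∀ p q, σ p = σ q → p = q := fun p q e => U_inj h fun y hy => (hσ q y).1 (e ▸ (hσ p y).2 hy)
    have i2 : ∀ p : Bool × Bool, σ (!p.1, !p.2) = (!(σ p).1, !(σ p).2) := fun p => by
      by_contra ne
      obtain ⟨w, w1, w2, u, wu⟩ := (by decide : ∀ q q' : Bool × Bool, q' ≠ (!q.1, !q.2) → ∃ w : D × D,
        (In q.1 w.1 ∧ In q.2 w.2) ∧ (In q'.1 w.1 ∧ In q'.2 w.2) ∧ ∃ u, w * u ≠ u * w) _ _ ne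
      obtain ⟨x, x1, x2, e⟩ := mem_U.1 ((hσ p (n⁻¹ * j w * n)).1 (by simpa [mul_assoc] using (jU h).2 w1))
      have x3 := (hσ (!p.1, !p.2) (n⁻¹ * j w * n)).1 (by simpa [mul_assoc] using (jU h).2 w2)
      rw [← e, jU h] at x3
      obtain ⟨u', e'⟩ := (mem_normalizer_iff.1 hn (n⁻¹ * j u * n)).2 (by simp [mul_assoc])
      have d : ∀ v, ∀ x y : D, In v x → In (!v) x → x * y = y * x := by decide
      have : x * u' = u' * x := Prod.ext (d _ _ _ x1 x3.1) (d _ _ _ x2 x3.2)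
      apply_fun j at this
      rw [map_mul, map_mul, e, e'] at this
      refine wu (h.inj ?_)
      rw [map_mul, map_mul]
      simpa [← mul_assoc] using (by simpa [mul_assoc] using this : j w * (j u * n) = j u * (j w * n))
    have i3 := (by decide +kernel : ∀ σ : Bool × Bool → Bool × Bool, (∀ p q, σ p = σ q → p = q) →
      (∀ p : Bool × Bool, σ (!p.1, !p.2) = (!(σ p).1, !(σ p).2)) → σ (σ (σ (σ (true, true)))) = (true, true)) σ i1 i2
    have m := (((hσ (true, true)).mul (hσ _)).mul (hσ _)).mul (hσ _)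
    rw [i3, show n * (n * (n * n)) = n ^ 4 by simp [pow_succ, mul_assoc]] at m
    refine h.nA _ (fun x y hx hy => ?_) (pow_mem hn 4)
    obtain ⟨x', x1, x2, e⟩ := mem_U.1 ((m (j (x, y))).2 ((jU h).2 ⟨hx, hy⟩))
    exact ⟨_, _, x1, x2, e.symm⟩
  have pN : IsPGroup 2 (normalizer (j.range : Set G)) := fun n => by
    obtain ⟨e, he⟩ := P.2 ⟨_, k n n.2⟩
    refine ⟨2 + e, Subtype.ext ?_⟩
    have := congrArg Subtype.val he
    simp only [SubgroupClass.coe_pow, OneMemClass.coe_one, ← pow_mul] at this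
    rw [SubgroupClass.coe_pow, pow_add]
    exact this
  have le : (P : Subgroup G) ≤ normalizer (j.range : Set G) := fun g hg => mem_normalizer_fintype (by
    rintro _ ⟨x, rfl⟩
    obtain ⟨t, ⟨-, e⟩ | e⟩ := act h hg <;> exact ⟨_, (e x).symm⟩)
  rwa [P.3 pN le] at hn

theorem cj (h : Cx j s r P) (X : Subgroup G) (m : Mt j s X) : Cj j X := fun R hR hp =>
  conj_into m.1 (pT h) (fun g hg hn => ((h.syl g).1 (nT h hn)).resolve_right fun e =>
    m.2 ((mul_mem_cancel_left hg).1 (m.1 e))) hR hp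

omit [Finite G] in
theorem sP (h : Cx j s r P) : s ∈ (P : Subgroup G) := (h.syl s).2 (.inr (h.ss ▸ one_mem _))

theorem noX (h : Cx j s r P) {X : Subgroup G} (m : Mt j s X) (g : G)
    (hg : ∀ y ∈ (P : Subgroup G), g * y * g⁻¹ ∈ X) : False := by
  obtain ⟨k, -, hk⟩ := cj h X m ((P : Subgroup G).map (MulAut.conj g).toMonoidHom)
    (by rintro _ ⟨y, hy, rfl⟩; exact hg y hy) (P.2.map _)
  have le : (((k * g) • P : Sylow 2 G) : Subgroup G) ≤ j.range := by
    rintro _ ⟨y, hy, rfl⟩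
    simpa [mul_assoc] using hk _ ⟨y, hy, rfl⟩
  have e1 := ((k * g) • P).3 (pT h) le
  have e2 := ((k * g) • P).3 P.2 (le.trans (TP h))
  exact h.sn (e1.symm ▸ e2 ▸ sP h)

theorem tz (h : Cx j s r P) : ¬ IsConj (j (z, 1)) (j (z, z)) := fun hc => by
  obtain ⟨g, hg⟩ := isConj_iff.1 hc.symm
  refine noX h (X := centralizer {j (z, 1)}) ⟨?_, fun hs => ?_⟩ g fun y hy => ?_
  · rintro _ ⟨x, rfl⟩
    rw [mem_centralizer_singleton_iff, ← map_mul, ← map_mul]
    exact congrArg j ((by decide : ∀ x : D × D, x * (z, 1) = (z, 1) * x) x)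
  · have := h.sw z 1
    rw [mem_centralizer_singleton_iff.1 hs, mul_inv_cancel_right] at this
    exact absurd (h.inj this) (by decide)
  · have : y * j (z, z) * y⁻¹ = j (z, z) := by
      obtain ⟨t, ⟨-, e⟩ | e⟩ := act h hy <;> rw [e] <;>
        exact congrArg j ((by decide : ∀ t : D × D, t * (z, z) * t⁻¹ = (z, z)) t)
    rw [mem_centralizer_singleton_iff, ← hg]
    rw [mul_inv_eq_iff_eq_mul] at this
    simp only [mul_assoc, inv_mul_cancel_left]
    rw [← mul_assoc y, this, mul_assoc]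

theorem nU (h : Cx j s r P) {y : G} {q : Bool × Bool} (hy : y ∈ j.range ∨ y ∈ (P : Subgroup G) ∧ q.1 = q.2) :
    y ∈ normalizer (U j q : Set G) := mem_normalizer_fintype fun w hw => by
  obtain ⟨x, x1, x2, rfl⟩ := mem_U.1 hw
  have d : ∀ v, ∀ x t : D, In v x → In v (t * x * t⁻¹) := by decide
  rcases hy with ⟨t, rfl⟩ | ⟨hy, e0⟩
  · exact mem_U.2 ⟨t * x * t⁻¹, d _ _ _ x1, d _ _ _ x2, by simp⟩
  · obtain ⟨t, ⟨-, e⟩ | e⟩ := act h hy
    · exact mem_U.2 ⟨_, d _ _ _ x1, d _ _ _ x2, (e x).symm⟩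
    · exact mem_U.2 ⟨_, d _ _ _ (e0 ▸ x2), d _ _ _ (e0 ▸ x1), (e x).symm⟩

theorem nB (h : Cx j s r P) {g : G} {q : Bool × Bool} (m : Mv j g (false, false) q) : q = (false, false) := by
  have n1 : ∀ y ∈ (P : Subgroup G), g * y * g⁻¹ ∈ normalizer (U j q : Set G) := fun y hy =>
    mem_normalizer_fintype fun w hw => by
      have := (m (y * (g⁻¹ * w * g) * y⁻¹)).2 ((mem_normalizer_iff.1 (nU h (q := (false, false)) (.inr ⟨hy, rfl⟩)) _).1
        ((m _).1 (by simpa [mul_assoc] using hw)))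
      simpa [mul_assoc] using this
  by_cases e : q.1 = q.2
  swap
  · refine (noX h (X := normalizer (U j q : Set G)) ⟨fun y hy => nU h (.inl hy), fun hs => e ?_⟩ g n1).elim
    have := (mem_normalizer_iff.1 hs (j (c q.1, c q.2))).1
      ((jU h).2 ⟨.inr (.inr (.inl rfl)), .inr (.inr (.inl rfl))⟩)
    rw [h.sw, jU h] at this
    exact (by decide : ∀ u v, In u (c v) → u = v) _ _ this.1
  by_contra ne
  obtain rfl : q = (true, true) := by revert ne e; clear m n1; revert q; decide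
  have PX : (P : Subgroup G) ≤ normalizer (U j (true, true) : Set G) := fun y hy => nU h (.inr ⟨hy, rfl⟩)
  have le : ((g • P : Sylow 2 G) : Subgroup G) ≤ normalizer (U j (true, true) : Set G) := by
    rintro _ ⟨y, hy, rfl⟩; exact n1 y hy
  obtain ⟨⟨k, hk⟩, e1⟩ := MulAction.exists_smul_eq (normalizer (U j (true, true) : Set G)) ((g • P).subtype le) (P.subtype PX)
  rw [Sylow.smul_subtype] at e1
  have e2 : (k * g) • P = P := by rw [mul_smul]; exact Sylow.subtype_injective e1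
  have n2 : k * g ∈ normalizer ((P : Subgroup G) : Set G) := Sylow.smul_eq_iff_mem_normalizer.1 e2
  have m2 : Mv j (k * g) (false, false) (true, true) := m.mul fun y => (mem_normalizer_iff.1 hk y).symm
  generalize k * g = n at n2 m2
  obtain ⟨x, x1, x2, ex⟩ := mem_U.1 ((m2 (j (z, 1))).2 ((jU h).2 ⟨.inr (.inl rfl), .inl rfl⟩))
  have t1 : n * j (z, z) * n⁻¹ ≠ j (z, 1) := fun e => tz h (isConj_iff.2 ⟨n, e⟩).symm
  have t2 : n * j (z, z) * n⁻¹ ≠ j (1, z) := fun e =>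
    tz h ((isConj_iff.2 ⟨s, h.sw z 1⟩).trans (isConj_iff.2 ⟨n, e⟩).symm)
  have k1 : ∀ t : D × D, t * x * t⁻¹ = x ∨ j (t * x * t⁻¹) = j x * (n * j (z, z) * n⁻¹) := fun t => by
    have hp : n⁻¹ * j t * n ∈ (P : Subgroup G) := (mem_normalizer_iff.1 n2 _).2 (by simpa [mul_assoc] using TP h ⟨t, rfl⟩)
    have e3 : j (t * x * t⁻¹) = n * (n⁻¹ * j t * n * j (z, 1) * (n⁻¹ * j t * n)⁻¹) * n⁻¹ := by
      simp [ex, mul_assoc]
    obtain ⟨t', ⟨-, e⟩ | e⟩ := act h hp <;> rw [e] at e3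
    · left
      rw [(by decide : ∀ t : D × D, t * (z, 1) * t⁻¹ = (z, 1)), ← ex] at e3
      exact h.inj e3
    · right
      rw [(by decide : ∀ t : D × D, t * ((z, 1) : D × D).swap * t⁻¹ = (z, 1) * (z, z)), map_mul j (z, 1)] at e3
      rw [e3, ex]; simp [mul_assoc]
  have k2 : ∀ t u : D × D, t * x * t⁻¹ = x * u → j u ≠ n * j (z, z) * n⁻¹ → u = 1 := fun t u e ne => by
    rcases k1 t with e' | e'
    · simpa [e'] using e
    · rw [e, map_mul, mul_right_inj] at e'; exact absurd e' ne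
  have x0 : x ≠ 1 := fun e => by
    rw [e, map_one, eq_comm, conj_eq_one_iff, ← map_one j] at ex
    exact absurd (h.inj ex) (by decide)
  have xz : x ≠ (z, z) := fun e => tz h (isConj_iff.2 ⟨n, by rw [← ex, e]⟩)
  have x3 : x = (z, 1) ∨ x = (1, z) := by
    have a1 := fun e => k2 (b, 1) (z, 1) e t1.symm
    have a2 := fun e => k2 (1, b) (1, z) e t2.symm
    clear ex k1 k2
    revert x
    decide
  have n3 : n ∈ normalizer (j.range : Set G) := mem_normalizer_fintype (by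
    rintro _ ⟨t, rfl⟩
    have hp := (mem_normalizer_iff.1 n2 _).1 (TP h ⟨t, rfl⟩)
    obtain ⟨t', ⟨e, -⟩ | e⟩ := act h hp
    · exact ⟨_, e.symm⟩
    · have e4 := e x
      have e5 : j t * j (z, 1) * (j t)⁻¹ = j (z, 1) := by
        rw [← map_inv, ← map_mul, ← map_mul, (by decide : ∀ t : D × D, t * (z, 1) * t⁻¹ = (z, 1))]
      have e6 : n * j t * n⁻¹ * j x * (n * j t * n⁻¹)⁻¹ = j x := by
        rw [ex]; conv_rhs => rw [← e5]
        simp [mul_assoc]
      rw [e6] at e4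
      have e7 := h.inj e4
      exact absurd e7 ((by decide : ∀ x t : D × D, x = (z, 1) ∨ x = (1, z) → x ≠ t * x.swap * t⁻¹) x t' x3))
  have := U_inj h (p := (false, false)) (q := (true, true)) fun y hy =>
    (mem_normalizer_iff.1 (PX (nT h n3)) y).2 ((m2 y).2 hy)
  exact absurd this (by decide)

end PN

theorem nt {G : Type*} [Group G] [Finite G] {j : D × D →* G} {s r : G} {P : Sylow 2 G} (h : Cx j s r P) : Nt j s :=
  ⟨PN.cj h, PN.tz h, fun g hg x y hx hy => by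
    obtain ⟨q, m⟩ := PN.e16 h (g := g) (p := (false, false)) fun w hw => by
      obtain ⟨x, x1, x2, rfl⟩ := PN.mem_U.1 hw
      exact hg _ _ x1 x2
    obtain rfl := PN.nB h m
    obtain ⟨x', x1, x2, e⟩ := PN.mem_U.1 ((m (j (x, y))).2 ((PN.jU h).2 ⟨hx, hy⟩))
    exact ⟨_, _, x1, x2, e.symm⟩⟩

end Cfsg.Agent.QW
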