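import Cfsg.Agent.QW.A
import Cfsg.Agent.S0111

/-! Fusion of the involution `j (b, 1)`. -/

set_option autoImplicit false
set_option synthInstance.maxSize 100000
set_option synthInstance.maxHeartbeats 400000

namespace Cfsg.Agent.QW

open Subgroup

def sA : Subgroup D where
  carrier := {x | InA x}
  mul_mem' {x y} := by simp only [Set.mem_setOf_eq]; revert x y; decide
  one_mem' := .inl rfl
  inv_mem' {x} := by simp only [Set.mem_setOf_eq]; revert x; decide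

def sB : Subgroup D where
  carrier := {x | InB x}
  mul_mem' {x y} := by simp only [Set.mem_setOf_eq]; revert x y; decide
  one_mem' := .inl rfl
  inv_mem' {x} := by simp only [Set.mem_setOf_eq]; revert x; decide

variable {G : Type*} [Group G] {j : D × D →* G} {s r : G} {P : Sylow 2 G}

/-- image of a product of two subgroups -/
def pm (j : D × D →* G) (U V : Subgroup D) : Subgroup G := (U.prod V).map j

theorem mem_pm {U V : Subgroup D} {g : G} : g ∈ pm j U V ↔ ∃ x y, x ∈ U ∧ y ∈ V ∧ g = j (x, y) :=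
  ⟨fun ⟨⟨x, y⟩, ⟨h1, h2⟩, e⟩ => ⟨x, y, h1, h2, e.symm⟩, fun ⟨x, y, h1, h2, e⟩ => ⟨(x, y), ⟨h1, h2⟩, e.symm⟩⟩

theorem jm (x y x' y' : D) : j (x, y) * j (x', y') = j (x * x', y * y') := by rw [← map_mul]; rfl

theorem jc (u v x y : D) : j (u, v) * j (x, y) * (j (u, v))⁻¹ = j (u * x * u⁻¹, v * y * v⁻¹) := by
  rw [← map_inv, ← map_mul, ← map_mul]; rfl

theorem pD : IsPGroup 2 (D × D) := fun g => ⟨2, by revert g; decide⟩

theorem pm2 (U V : Subgroup D) : IsPGroup 2 (pm j U V) := (pD.to_subgroup _).map j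

theorem icT (u v x y : D) {x' y' : D} (e : u * x * u⁻¹ = x') (e' : v * y * v⁻¹ = y') :
    IsConj (j (x, y)) (j (x', y')) := isConj_iff.2 ⟨j (u, v), by rw [jc, e, e']⟩

theorem p2el {w : G} {k : ℕ} (h : w ^ 2 ^ k = 1) : IsPGroup 2 (zpowers w) := by
  rintro ⟨_, n, rfl⟩
  refine ⟨k, Subtype.ext ?_⟩
  show (w ^ n) ^ 2 ^ k = 1
  rw [← zpow_natCast, ← zpow_mul, mul_comm, zpow_mul, zpow_natCast, h, one_zpow]

theorem cmul (g u v : G) : g * (u * v) * g⁻¹ = g * u * g⁻¹ * (g * v * g⁻¹) := by group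

namespace Cx

variable (h : Cx j s r P)
include h

theorem eq {x y x' y' : D} (e : j (x, y) = j (x', y')) : x = x' ∧ y = y' := Prod.ext_iff.1 (h.inj e)

theorem ne1 {x y : D} (e : j (x, y) = 1) : x = 1 ∧ y = 1 := h.eq (e.trans (map_one j).symm)

theorem icS (x y : D) : IsConj (j (x, y)) (j (y, x)) := isConj_iff.2 ⟨s, h.sw x y⟩

theorem rz' (y : D) : r * j (z, y) * r⁻¹ = j (a, y) := by
  have : j (z, y) = j (z, 1) * j (1, y) := by rw [jm, mul_one, one_mul]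
  rw [this, cmul, h.rz, h.rc, mul_inv_cancel_right, jm, mul_one, one_mul]

theorem ra' (y : D) : r * j (a, y) * r⁻¹ = j (a * z, y) := by
  have : j (a, y) = j (a, 1) * j (1, y) := by rw [jm, mul_one, one_mul]
  rw [this, cmul, h.ra, h.rc, mul_inv_cancel_right, jm, mul_one, one_mul]

theorem icA {x : D} (hx : InA x) (h1 : x ≠ 1) (y : D) : IsConj (j (z, y)) (j (x, y)) := by
  have c1 : IsConj (j (z, y)) (j (a, y)) := isConj_iff.2 ⟨r, h.rz' y⟩
  rcases hx with e | e | e | e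
  · exact absurd e h1
  · rw [e]
  · rw [e]; exact c1
  · rw [e]; exact c1.trans (isConj_iff.2 ⟨r, h.ra' y⟩)

theorem icAA {x y : D} (hx : InA x) (hy : InA y) (h1 : x ≠ 1) (h2 : y ≠ 1) : IsConj (j (z, z)) (j (x, y)) :=
  ((h.icA hy h2 z).trans (h.icS y z)).trans (h.icA hx h1 y)

theorem sj (x y : D) : s * j (x, y) = j (y, x) * s := by rw [← h.sw x y, inv_mul_cancel_right]

theorem sq (x y : D) : j (x, y) * s * (j (x, y) * s) = j (x * y, y * x) := by
  rw [mul_assoc, ← mul_assoc s, h.sj, mul_assoc, h.ss, mul_one, jm]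

theorem memP {g : G} (hg : g ∈ (P : Subgroup G)) : ∃ x y, g = j (x, y) ∨ g = j (x, y) * s := by
  rcases (h.syl g).1 hg with ⟨⟨x, y⟩, e⟩ | ⟨⟨x, y⟩, e⟩
  · exact ⟨x, y, .inl e.symm⟩
  · exact ⟨x, y, .inr (by rw [e, mul_assoc, h.ss, mul_one])⟩

theorem mtz1 : Mt j s (centralizer {j (z, 1)}) := by
  refine ⟨?_, fun hs => ?_⟩
  · rintro _ ⟨⟨x, y⟩, rfl⟩
    rw [mem_centralizer_singleton_iff, jm, jm, mul_one, one_mul, show x * z = z * x by revert x; decide]
  · rw [mem_centralizer_singleton_iff, h.sj, mul_left_inj] at hs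
    exact absurd (h.eq hs).1 (by decide)

theorem mtz2 : Mt j s (centralizer {j (1, z)}) := by
  refine ⟨?_, fun hs => ?_⟩
  · rintro _ ⟨⟨x, y⟩, rfl⟩
    rw [mem_centralizer_singleton_iff, jm, jm, mul_one, one_mul, show y * z = z * y by revert y; decide]
  · rw [mem_centralizer_singleton_iff, h.sj, mul_left_inj] at hs
    exact absurd (h.eq hs).1 (by decide)

/-- the even part of the Sylow subgroup -/
def ev : Subgroup G where
  carrier := {g | ∃ x y, (InA x ↔ InA y) ∧ (g = j (x, y) ∨ g = j (x, y) * s)}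
  mul_mem' := by
    have k : ∀ x y x' y' : D, (InA x ↔ InA y) → (InA x' ↔ InA y') →
        (InA (x * x') ↔ InA (y * y')) ∧ (InA (x * y') ↔ InA (y * x')) := by decide +kernel
    rintro _ _ ⟨x, y, e, rfl | rfl⟩ ⟨x', y', e', rfl | rfl⟩
    · exact ⟨_, _, (k _ _ _ _ e e').1, .inl (jm ..)⟩
    · exact ⟨_, _, (k _ _ _ _ e e').1, .inr (by rw [← mul_assoc, jm])⟩
    · exact ⟨_, _, (k _ _ _ _ e e').2, .inr (by rw [mul_assoc, h.sj, ← mul_assoc, jm])⟩
    · exact ⟨_, _, (k _ _ _ _ e e').2, .inl (by rw [mul_assoc, ← mul_assoc s, h.sj, mul_assoc, h.ss, mul_one, jm])⟩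
  one_mem' := ⟨1, 1, Iff.rfl, .inl (map_one j).symm⟩
  inv_mem' := by
    have k : ∀ x y : D, (InA x ↔ InA y) → (InA x⁻¹ ↔ InA y⁻¹) ∧ (InA y⁻¹ ↔ InA x⁻¹) := by decide
    rintro _ ⟨x, y, e, rfl | rfl⟩
    · exact ⟨_, _, (k _ _ e).1, .inl (by rw [← map_inv]; rfl)⟩
    · refine ⟨_, _, (k _ _ e).2, .inr ?_⟩
      rw [mul_inv_rev, inv_eq_of_mul_eq_one_right h.ss, ← map_inv]
      exact h.sj _ _

theorem mem_ev {x y : D} : (j (x, y) ∈ h.ev ↔ (InA x ↔ InA y)) ∧ (j (x, y) * s ∈ h.ev ↔ (InA x ↔ InA y)) := by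
  have k : ∀ x y x' y', j (x, y) ≠ j (x', y') * s := fun x y x' y' e =>
    h.sn ⟨(x', y')⁻¹ * (x, y), by rw [map_mul, map_inv, e, inv_mul_cancel_left]⟩
  refine ⟨⟨?_, fun e => ⟨x, y, e, .inl rfl⟩⟩, ⟨?_, fun e => ⟨x, y, e, .inr rfl⟩⟩⟩
  · rintro ⟨x', y', e, e' | e'⟩
    · obtain ⟨rfl, rfl⟩ := h.eq e'; exact e
    · exact absurd e' (k _ _ _ _)
  · rintro ⟨x', y', e, e' | e'⟩
    · exact absurd e'.symm (k _ _ _ _)
    · obtain ⟨rfl, rfl⟩ := h.eq (mul_right_cancel e'); exact e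

theorem thom [Finite G] [IsSimpleGroup G] : IsConj (j (z, 1)) (j (b, 1)) ∨ IsConj (j (z, z)) (j (b, 1)) ∨
    IsConj (j (b, b)) (j (b, 1)) ∨ IsConj s (j (b, 1)) := by
  haveI : Fact (Nat.Prime 2) := ⟨Nat.prime_two⟩
  have hb : j (b, 1) ∈ (P : Subgroup G) := (h.syl _).2 (.inl ⟨_, rfl⟩)
  have b2 : j (b, 1) * j (b, 1) = 1 := by rw [jm, ← map_one j]; rfl
  have b1 : j (b, 1) ≠ 1 := fun e => absurd (h.ne1 e).1 (by decide)
  have hle : h.ev ≤ (P : Subgroup G) := by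
    rintro _ ⟨x, y, -, rfl | rfl⟩
    · exact (h.syl _).2 (.inl ⟨_, rfl⟩)
    · exact (h.syl _).2 (.inr ⟨(x, y), by rw [mul_assoc, h.ss, mul_one]⟩)
  have hi2 : h.ev.relIndex (P : Subgroup G) = 2 := by
    refine relIndex_eq_two_iff.2 ⟨j (b, 1), hb, fun g hg => ?_⟩
    have k : ∀ x y : D, Xor' (InA (x * b) ↔ InA (y * 1)) (InA x ↔ InA y) ∧
        Xor' (InA (x * 1) ↔ InA (y * b)) (InA x ↔ InA y) := by unfold Xor'; decide
    obtain ⟨x, y, rfl | rfl⟩ := h.memP hg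
    · rw [jm, h.mem_ev.1, h.mem_ev.1]; exact (k x y).1
    · rw [mul_assoc, h.sj, ← mul_assoc, jm, h.mem_ev.2, h.mem_ev.2]; exact (k x y).2
  rcases S0111.result P h.ev hle hi2 (j (b, 1)) (orderOf_eq_prime (by rw [pow_two, b2]) b1) hb
    (fun e => absurd (h.mem_ev.1.1 e) (by decide)) with ⟨M, hM, hi, hu⟩ | ⟨g, x, y, e, e'⟩
  · exfalso
    rcases hM.eq_bot_or_eq_top with e | e
    · have := mul_self_mem_of_index_two hi (j (.r 1, 1))
      rw [e, mem_bot, jm] at this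
      exact absurd (h.ne1 this).1 (by decide)
    · exact hu (e ▸ mem_top _)
  · have u2 : g * j (b, 1) * g⁻¹ * (g * j (b, 1) * g⁻¹) = 1 := by rw [← cmul, b2]; group
    have u1 : g * j (b, 1) * g⁻¹ ≠ 1 := fun e => b1 (conj_eq_one_iff.1 e)
    have cc : IsConj (g * j (b, 1) * g⁻¹) (j (b, 1)) := (isConj_iff.2 ⟨g, rfl⟩).symm
    rcases e' with e' | e'
    · rw [e'] at u2 u1 cc
      rw [jm] at u2
      have k : ∀ x y : D, (InA x ↔ InA y) → x * x = 1 → y * y = 1 →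
          (InA x ∧ InA y) ∨ ∃ u v : D, u * b * u⁻¹ = x ∧ v * b * v⁻¹ = y := by decide +kernel
      rcases k x y e (h.ne1 u2).1 (h.ne1 u2).2 with ⟨hx, hy⟩ | ⟨u, v, e1, e2⟩
      · by_cases x1 : x = 1
        · have y1 : y ≠ 1 := fun y1 => u1 (by rw [x1, y1]; exact map_one j)
          rw [x1] at cc
          exact .inl (((h.icA hy y1 1).trans (h.icS y 1)).trans cc)
        · by_cases y1 : y = 1
          · rw [y1] at cc
            exact .inl ((h.icA hx x1 1).trans cc)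
          · exact .inr (.inl ((h.icAA hx hy x1 y1).trans cc))
      · exact .inr (.inr (.inl ((icT u v b b e1 e2).trans cc)))
    · rw [e'] at u2 cc
      rw [h.sq] at u2
      refine .inr (.inr (.inr (IsConj.trans (isConj_iff.2 ⟨j (x, 1), ?_⟩) cc)))
      rw [← map_inv, mul_assoc, show (x, (1 : D))⁻¹ = (x⁻¹, 1) from rfl, h.sj, ← mul_assoc, jm, mul_one, one_mul,
        inv_eq_of_mul_eq_one_right (h.ne1 u2).1]

end Cx

/-- a 2-element normalizing a 2-subgroup has square centralizing it -/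
theorem Nt.sq (n : Nt j s) {X E : Subgroup G} (hX : Mt j s X) (hE : E ≤ X) (h2 : IsPGroup 2 E) {w : G}
    (hw : w ∈ X) (hn : w ∈ normalizer (E : Set G)) (h4 : w ^ 4 ∈ E) {e : G} (he : e ∈ E) :
    w * w * e = e * (w * w) := by
  obtain ⟨k, hk⟩ := h2 ⟨_, h4⟩
  have p1 : IsPGroup 2 (zpowers w) := p2el (k := 2 + k) (by
    rw [pow_add, pow_mul]; exact congrArg Subtype.val hk)
  obtain ⟨c, -, hc⟩ := n.cj X hX (zpowers w ⊔ E) (sup_le (zpowers_le.2 hw) hE)
    (p1.to_sup_of_normal_right' h2 (zpowers_le.2 hn))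
  obtain ⟨p, hp⟩ := hc w (mem_sup_left (mem_zpowers w))
  obtain ⟨q, hq⟩ := hc e (mem_sup_right he)
  have k1 : ∀ x y : D, x * x * y = y * (x * x) := by decide
  have k2 : p * p * q = q * (p * p) := Prod.ext (k1 _ _) (k1 _ _)
  have k3 := congrArg j k2
  rw [map_mul, map_mul, map_mul, map_mul, hp, hq, ← cmul, ← cmul, ← cmul] at k3
  exact mul_left_cancel (mul_right_cancel k3)

end Cfsg.Agent.QW
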