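import Cfsg.Agent.QW.R1

/-! The involution `j (b, 1)` or `j (b, z)` is conjugate to `j (z, 1)`. -/

set_option autoImplicit false
set_option synthInstance.maxSize 100000
set_option synthInstance.maxHeartbeats 400000

namespace Cfsg.Agent.QW

open Subgroup

variable {G : Type*} [Group G] [Finite G] {j : D × D →* G} {s r : G} {P : Sylow 2 G}

theorem syl_conj (X : Subgroup G) (S : Sylow 2 X) {w : G} (hw : w ∈ X) {m : ℕ} (h2 : w ^ 2 ^ m = 1) :
    ∃ k ∈ X, k * w * k⁻¹ ∈ (S : Subgroup X).map X.subtype := by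
  haveI : Fact (Nat.Prime 2) := ⟨Nat.prime_two⟩
  obtain ⟨S', hS'⟩ := (p2el (w := (⟨w, hw⟩ : X)) (k := m) (Subtype.ext h2)).exists_le_sylow
  obtain ⟨k, hk⟩ := MulAction.exists_smul_eq X S' S
  refine ⟨k, k.2, k * ⟨w, hw⟩ * k⁻¹, ?_, rfl⟩
  rw [← hk]
  exact ⟨_, hS' (mem_zpowers _), rfl⟩

namespace Cx

variable (h : Cx j s r P) (n : Nt j s)
include h n

omit [Finite G] in
theorem nz2 : ¬ IsConj (j (1, z)) (j (z, z)) := fun c => n.tz ((h.icS z 1).trans c)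

theorem sylb (h1 : ¬ IsConj (j (z, 1)) (j (b, 1))) (h2 : ¬ IsConj (j (z, z)) (j (b, 1))) {w : G}
    (hw : w * j (b, 1) = j (b, 1) * w) (h4 : w ^ 2 ^ 2 = 1) :
    ∃ k, k * j (b, 1) * k⁻¹ = j (b, 1) ∧ ∃ x y, InB x ∧ k * w * k⁻¹ = j (x, y) := by
  haveI : Fact (Nat.Prime 2) := ⟨Nat.prime_two⟩
  set X := centralizer ({j (b, 1)} : Set G) with hX
  have r0 : pm j sB ⊤ ≤ X := by
    intro g hg
    obtain ⟨x, y, hx, -, rfl⟩ := mem_pm.1 hg
    rw [mem_centralizer_singleton_iff, jm, jm, mul_one, one_mul,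
      (by decide : ∀ x, InB x → x * b = b * x) x hx]
  obtain ⟨S, hS⟩ := ((pm2 (j := j) sB ⊤).comap_subtype (K := X)).exists_le_sylow
  obtain ⟨k, hk, hkw⟩ := syl_conj X S (mem_centralizer_singleton_iff.2 hw) h4
  set S' := (S : Subgroup X).map X.subtype with hS'
  have s2 : IsPGroup 2 S' := S.isPGroup'.map _
  have sX : S' ≤ X := map_subtype_le _
  have rS : pm j sB ⊤ ≤ S' := fun g hg => ⟨⟨g, r0 hg⟩, hS hg, rfl⟩
  refine ⟨k, by rw [mem_centralizer_singleton_iff.1 hk, mul_inv_cancel_right], ?_⟩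
  by_contra hne
  have hlt : (pm j sB ⊤).subgroupOf S' < ⊤ := by
    refine lt_top_iff_ne_top.2 fun e => hne ?_
    obtain ⟨x, y, hx, -, e⟩ := mem_pm.1 (subgroupOf_eq_top.1 e hkw)
    exact ⟨x, y, hx, e⟩
  haveI := s2.isNilpotent
  obtain ⟨⟨u, hu⟩, un, u0⟩ := SetLike.exists_of_lt (Group.normalizerCondition_of_isNilpotent _ hlt)
  have uz : u * j (1, z) = j (1, z) * u := by
    have m1 : j (1, .r 1) ∈ pm j sB ⊤ := mem_pm.2 ⟨1, _, one_mem _, mem_top _, rfl⟩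
    obtain ⟨x, y, hx, -, e⟩ := mem_pm.1 (mem_subgroupOf.1 ((mem_normalizer_iff.1 un ⟨_, rS m1⟩).1 m1))
    change u * j (1, .r 1) * u⁻¹ = _ at e
    have e2 : u * j (1, z) * u⁻¹ = j (x * x, y * y) := by
      rw [← jm, ← e, ← cmul, jm]; rfl
    have k1 : ∀ x y : D, InB x → x * x = 1 ∧ (y * y = 1 ∨ y * y = z) := by decide
    obtain ⟨k2, k3 | k3⟩ := k1 x y hx
    · rw [k2, k3, show ((1, 1) : D × D) = 1 from rfl, map_one, conj_eq_one_iff] at e2
      exact absurd (h.ne1 e2).2 (by decide)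
    · rw [k2, k3] at e2
      exact mul_inv_eq_iff_eq_mul.1 e2
  set R := pm j sB ⊤ ⊔ zpowers u with hR
  have RS : R ≤ S' := sup_le rS (zpowers_le.2 hu)
  obtain ⟨c, -, hc⟩ := n.cj _ h.mtz2 R (sup_le (le_trans (map_le_range j _) h.mtz2.1)
    (zpowers_le.2 (mem_centralizer_singleton_iff.2 uz))) (s2.to_le RS)
  have hle : R.map (MulAut.conj c).toMonoidHom ≤ j.range := by
    rintro _ ⟨g, hg, rfl⟩; exact hc g hg
  have c64 : Nat.card j.range = 64 := by
    rw [← Nat.card_congr (MonoidHom.ofInjective h.inj).toEquiv, Nat.card_prod, DihedralGroup.nat_card]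
  have c32 : Nat.card (pm j sB ⊤) = 32 := by
    rw [pm, card_map_of_injective h.inj, Nat.card_congr (prodEquiv _ _).toEquiv, Nat.card_prod, card_top,
      DihedralGroup.nat_card]
    have : Nat.card sB = 4 := by
      change Nat.card {x : D // InB x} = 4
      rw [Nat.card_eq_fintype_card]; decide
    rw [this]
  have cR : Nat.card (R.map (MulAut.conj c).toMonoidHom) = Nat.card R :=
    card_map_of_injective (MulAut.conj c).injective
  have d1 : 32 ∣ Nat.card R := c32 ▸ card_dvd_of_le le_sup_left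
  have d2 : Nat.card R ≤ 64 := by rw [← cR, ← c64]; exact card_le_of_le hle
  have d3 : Nat.card R ≠ 32 := fun e => u0 (by
    have := eq_of_le_of_card_ge (le_sup_left : pm j sB ⊤ ≤ R) (by rw [e, c32])
    rw [mem_subgroupOf, this]
    exact mem_sup_right (mem_zpowers u))
  have d4 : 0 < Nat.card R := Nat.card_pos
  have heq := eq_of_le_of_card_ge hle (by rw [cR, c64]; omega)
  obtain ⟨⟨x, y⟩, e⟩ := hc (j (b, 1)) (mem_sup_left (mem_pm.2 ⟨b, 1, .inr (.inr (.inl rfl)), mem_top _, rfl⟩))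
  have cm : ∀ x' y', x' * x = x * x' ∧ y' * y = y * y' := fun x' y' => by
    obtain ⟨g, hg, e'⟩ := heq.ge (⟨(x', y'), rfl⟩ : j (x', y') ∈ j.range)
    change c * g * c⁻¹ = _ at e'
    refine h.eq ?_
    rw [← jm, ← jm, e, ← e', ← cmul, ← cmul, mem_centralizer_singleton_iff.1 (sX (RS hg))]
  have k1 : ∀ x : D, a * x = x * a → b * x = x * b → x = 1 ∨ x = z := by decide
  have cc : IsConj (j (x, y)) (j (b, 1)) := (isConj_iff.2 ⟨c, e.symm⟩).symm
  rcases k1 x (cm a a).1 (cm b b).1 with rfl | rfl <;> rcases k1 y (cm a a).2 (cm b b).2 with rfl | rfl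
  · rw [show ((1, 1) : D × D) = 1 from rfl, map_one, isConj_one_right] at cc
    exact absurd (h.ne1 cc).1 (by decide)
  · exact h1 ((h.icS z 1).trans cc)
  · exact h1 cc
  · exact h2 cc

theorem two [IsSimpleGroup G] : IsConj (j (z, 1)) (j (b, 1)) ∨ IsConj (j (z, z)) (j (b, 1)) := by
  by_contra hn
  rw [not_or] at hn
  have k1 : ∀ x y : D, InB x → x * x = 1 ∧ (y * y = 1 ∨ y * y = z) := by decide
  rcases h.thom with c | c | c | c
  · exact hn.1 c
  · exact hn.2 c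
  · obtain ⟨g, hg⟩ := isConj_iff.1 c
    have e : g * (j (b, 1) * s) * g⁻¹ * (g * (j (b, 1) * s) * g⁻¹) = j (b, 1) := by
      rw [← cmul, h.sq, mul_one, one_mul, hg]
    obtain ⟨k, hk, x, y, hx, e'⟩ := h.sylb n hn.1 hn.2 (w := g * (j (b, 1) * s) * g⁻¹)
      (by generalize g * (j (b, 1) * s) * g⁻¹ = w at e; rw [← e, mul_assoc]) (by
        rw [show 2 ^ 2 = 2 * 2 from rfl, pow_mul, pow_two _, pow_two, e, jm, ← map_one j]; rfl)
    rw [← e, cmul, e', jm, e, (k1 x y hx).1] at hk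
    exact absurd (h.eq hk).1 (by decide)
  · obtain ⟨g, hg⟩ := isConj_iff.1 c
    have e : g * j (.r 1, .r 1) * g⁻¹ * (g * j (.r 1, .r 1) * g⁻¹) = g * j (z, z) * g⁻¹ := by
      rw [← cmul, jm]; rfl
    obtain ⟨k, -, x, y, hx, e'⟩ := h.sylb n hn.1 hn.2 (w := g * j (.r 1, .r 1) * g⁻¹)
      (by rw [← hg, ← cmul, ← cmul, h.sj]) (by
        rw [show 2 ^ 2 = 2 * 2 from rfl, pow_mul, pow_two _, pow_two, e, ← cmul, jm, conj_eq_one_iff, ← map_one j]; rfl)
    have cc : IsConj (j (z, z)) (j (x * x, y * y)) := isConj_iff.2 ⟨k * g, by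
      rw [← jm, ← e', ← cmul, e]; group⟩
    obtain ⟨k2, k3 | k3⟩ := k1 x y hx
    · rw [k2, k3, show ((1, 1) : D × D) = 1 from rfl, map_one, isConj_one_left] at cc
      exact absurd (h.ne1 cc).1 (by decide)
    · rw [k2, k3] at cc
      exact h.nz2 n cc.symm

theorem caseII (c : IsConj (j (z, z)) (j (b, 1))) : IsConj (j (z, 1)) (j (b, z)) := by
  obtain ⟨g, hg⟩ := isConj_iff.1 c.symm
  have hP : (P : Subgroup G) ≤ centralizer {j (z, z)} := by
    intro p hp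
    rw [mem_centralizer_singleton_iff]
    have k : ∀ x : D, x * z = z * x := by decide
    obtain ⟨x, y, rfl | rfl⟩ := h.memP hp
    · rw [jm, jm, k x, k y]
    · rw [mul_assoc, h.sj, ← mul_assoc, ← mul_assoc, jm, jm, k x, k y]
  have e : g * j (1, .r 1) * g⁻¹ * (g * j (1, .r 1) * g⁻¹) = g * j (1, z) * g⁻¹ := by
    rw [← cmul, jm]; rfl
  obtain ⟨k, hk, ⟨w, hw⟩, wP, e'⟩ := syl_conj (centralizer {j (z, z)}) (P.subtype hP) (w := g * j (1, .r 1) * g⁻¹)
    (by rw [mem_centralizer_singleton_iff, ← hg, ← cmul, ← cmul, jm, jm]; rfl) (m := 2) (by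
      rw [show 2 ^ 2 = 2 * 2 from rfl, pow_mul, pow_two _, pow_two, e, ← cmul, jm, conj_eq_one_iff, ← map_one j]; rfl)
  change w = _ at e'
  have w2 : k * g * j (1, z) * (k * g)⁻¹ = w * w := by rw [e', ← cmul, e]; group
  have w3 : k * g * j (b, z) * (k * g)⁻¹ = j (z, z) * (w * w) := by
    have : j (b, z) = j (b, 1) * j (1, z) := by rw [jm, mul_one, one_mul]
    rw [this, cmul, w2]
    congr 1
    calc k * g * j (b, 1) * (k * g)⁻¹ = k * (g * j (b, 1) * g⁻¹) * k⁻¹ := by group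
      _ = _ := by rw [hg, mem_centralizer_singleton_iff.1 hk, mul_inv_cancel_right]
  have c2 : IsConj (j (1, z)) (w * w) := isConj_iff.2 ⟨_, w2⟩
  refine IsConj.trans ?_ (isConj_iff.2 ⟨_, w3⟩).symm
  have n1 : w * w ≠ 1 := fun e => by
    rw [e, isConj_one_left] at c2
    exact absurd (h.ne1 c2).2 (by decide)
  have n2 : w * w * (w * w) = 1 := by rw [← w2, ← cmul, jm, conj_eq_one_iff, ← map_one j]; rfl
  obtain ⟨x, y, e1 | e1⟩ := h.memP (show w ∈ (P : Subgroup G) from wP)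
  · rw [e1, jm] at c2 n1 ⊢
    have k1 : ∀ x : D, x * x = 1 ∨ x * x = z := by decide
    rcases k1 x with k2 | k2 <;> rcases k1 y with k3 | k3 <;> rw [k2, k3] at c2 n1 ⊢
    · exact absurd (map_one j) n1
    · rw [jm]; exact IsConj.refl _
    · rw [jm]; exact h.icS z 1
    · exact absurd c2 (h.nz2 n)
  · rw [e1, h.sq] at c2 n1 n2 ⊢
    rw [jm] at n2 ⊢
    have k1 : ∀ x y : D, x * y * (x * y) = 1 → (x * y = 1 ∧ y * x = 1) ∨
        (InA (x * y) ∧ InA (y * x) ∧ x * y ≠ 1 ∧ y * x ≠ 1) ∨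
        (.r 1 * (x * y) * (.r 1 : D)⁻¹ = z * (x * y) ∧ .r 1 * (y * x) * (.r 1 : D)⁻¹ = z * (y * x)) := by decide
    rcases k1 x y (h.ne1 n2).1 with ⟨k2, k3⟩ | ⟨k2, k3, k4, k5⟩ | ⟨k2, k3⟩
    · rw [k2, k3] at n1; exact absurd (map_one j) n1
    · exact absurd (c2.trans (h.icAA k2 k3 k4 k5).symm) (h.nz2 n)
    · exact ((h.icS z 1).trans c2).trans (icT _ _ _ _ k2 k3)

theorem eta {e : D} (he : e = 1 ∨ e = z) (c : IsConj (j (z, 1)) (j (b, e))) :
    ∃ η ∈ normalizer (pm j sB sB : Set G), η * j (z, 1) * η⁻¹ = j (z, 1) ∧ η * j (1, z) * η⁻¹ = j (e, b) := by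
  obtain ⟨g1, hg1⟩ := isConj_iff.1 c.symm
  obtain ⟨k, hk, hc⟩ := n.cj _ h.mtz1 ((pm j sB ⊤).map (MulAut.conj g1).toMonoidHom) (by
    rintro _ ⟨u, hu, rfl⟩
    obtain ⟨x, y, hx, -, rfl⟩ := mem_pm.1 hu
    have k1 : ∀ x y e : D, InB x → e = 1 ∨ e = z → x * b = b * x ∧ y * e = e * y := by decide +kernel
    change g1 * j (x, y) * g1⁻¹ ∈ _
    rw [mem_centralizer_singleton_iff, ← hg1, ← cmul, ← cmul, jm, jm, (k1 x y e hx he).1, (k1 x y e hx he).2])
    ((pm2 _ _).map _)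
  have hT : ∀ x y, InB x → k * g1 * j (x, y) * (k * g1)⁻¹ ∈ j.range := fun x y hx => by
    have := hc _ ⟨_, mem_pm.2 ⟨x, y, hx, mem_top _, rfl⟩, rfl⟩
    change k * (g1 * j (x, y) * g1⁻¹) * k⁻¹ ∈ _ at this
    rwa [show k * (g1 * j (x, y) * g1⁻¹) * k⁻¹ = k * g1 * j (x, y) * (k * g1)⁻¹ by group] at this
  have g1' : k * g1 * j (b, e) * (k * g1)⁻¹ = j (z, 1) := by
    calc k * g1 * j (b, e) * (k * g1)⁻¹ = k * (g1 * j (b, e) * g1⁻¹) * k⁻¹ := by group
      _ = _ := by rw [hg1, mem_centralizer_singleton_iff.1 hk, mul_inv_cancel_right]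
  generalize k * g1 = g at hT g1'
  have g2 : g * j (1, z) * g⁻¹ = j (1, z) := by
    obtain ⟨⟨x, y⟩, e1⟩ := hT 1 (.r 1) (.inl rfl)
    have e2 : g * j (1, z) * g⁻¹ = j (x * x, y * y) := by rw [← jm, e1, ← cmul, jm]; rfl
    have k1 : ∀ x : D, x * x = 1 ∨ x * x = z := by decide
    rcases k1 x with k2 | k2 <;> rcases k1 y with k3 | k3 <;> rw [k2, k3] at e2
    · rw [show ((1, 1) : D × D) = 1 from rfl, map_one, conj_eq_one_iff] at e2
      exact absurd (h.ne1 e2).2 (by decide)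
    · exact e2
    · rw [← g1', mul_left_inj, mul_right_inj] at e2
      exact absurd (h.eq e2).1 (by decide)
    · exact absurd (isConj_iff.2 ⟨g, e2⟩) (h.nz2 n)
  have gn : g ∈ normalizer (pm j sB sB : Set G) := by
    refine mem_normalizer_fintype fun u hu => ?_
    obtain ⟨x, y, hx, hy, rfl⟩ := mem_pm.1 hu
    exact mem_pm.2 (n.nB g (fun x y hx _ => hT x y hx) x y hx hy)
  have sn : s ∈ normalizer (pm j sB sB : Set G) := by
    refine mem_normalizer_fintype fun u hu => ?_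
    obtain ⟨x, y, hx, hy, rfl⟩ := mem_pm.1 hu
    exact mem_pm.2 ⟨y, x, hy, hx, h.sw x y⟩
  refine ⟨s * g⁻¹ * s⁻¹, mul_mem (mul_mem sn (inv_mem gn)) (inv_mem sn), ?_, ?_⟩
  · rw [← h.sw 1 z]
    conv_lhs => rw [← g2]
    group
  · rw [← h.sw z 1, ← h.sw b e, ← g1']
    group

end Cx

end Cfsg.Agent.QW
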