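import Cfsg.Agent.QW.R2

/-! An element of order 3 normalizing `j (B × B)`. -/

set_option autoImplicit false
set_option synthInstance.maxSize 100000
set_option synthInstance.maxHeartbeats 400000

namespace Cfsg.Agent.QW

open Subgroup

variable {G : Type*} [Group G] {j : D × D →* G} {s r : G} {P : Sylow 2 G}

abbrev In (t x : D) : Prop := x = 1 ∨ x = z ∨ x = t ∨ x = t * z

/-- the linear map with given values on the generators -/
def lin (t : D) (p1 p2 p3 p4 p : D × D) : D × D :=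
  (if p.1 = z ∨ p.1 = t * z then p1 else 1) * (if p.1 = t ∨ p.1 = t * z then p4 else 1) *
    ((if p.2 = z ∨ p.2 = b * z then p2 else 1) * (if p.2 = b ∨ p.2 = b * z then p3 else 1))

abbrev Cl (t : D) (f : D × D → D × D) : Prop := ∀ p : D × D, In t p.1 → InB p.2 → In t (f p).1 ∧ InB (f p).2

/-- `g` acts as `f` -/
def Act (j : D × D →* G) (t : D) (g : G) (f : D × D → D × D) : Prop :=
  Cl t f ∧ ∀ p : D × D, In t p.1 → InB p.2 → g * j p * g⁻¹ = j (f p)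

theorem act_lin {t : D} (ht : t = a ∨ t = b) {g : G} {p1 p2 p3 p4 : D × D} (h1 : g * j (z, 1) * g⁻¹ = j p1)
    (h2 : g * j (1, z) * g⁻¹ = j p2) (h3 : g * j (1, b) * g⁻¹ = j p3) (h4 : g * j (t, 1) * g⁻¹ = j p4)
    (k0 : Cl t (lin t p1 p2 p3 p4)) : Act j t g (lin t p1 p2 p3 p4) := by
  refine ⟨k0, fun p hx hy => ?_⟩
  have k : ∀ t : D, t = a ∨ t = b → ∀ p : D × D, In t p.1 → InB p.2 →
      p = lin t (z, 1) (1, z) (1, b) (t, 1) p := by decide +kernel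
  have k2 : ∀ (c : Prop) [Decidable c] (q q' : D × D), g * j q * g⁻¹ = j q' →
      g * j (if c then q else 1) * g⁻¹ = j (if c then q' else 1) := by
    intro c _ q q' e
    split_ifs
    · exact e
    · simp
  conv_lhs => rw [k t ht p hx hy]
  unfold lin
  rw [map_mul, map_mul, map_mul, cmul, cmul, cmul, k2 _ _ _ h1, k2 _ _ _ h2, k2 _ _ _ h3, k2 _ _ _ h4,
    map_mul, map_mul, map_mul]

theorem act_j (t : D) (q : D × D) (k0 : Cl t fun p => q * p * q⁻¹) : Act j t (j q) fun p => q * p * q⁻¹ :=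
  ⟨k0, fun p _ _ => by rw [← map_inv, ← map_mul, ← map_mul]⟩

namespace Act

variable {t : D} {g g' : G} {f f' : D × D → D × D}

theorem mul (h : Act j t g f) (h' : Act j t g' f') : Act j t (g * g') fun p => f (f' p) :=
  ⟨fun p hx hy => h.1 _ (h'.1 p hx hy).1 (h'.1 p hx hy).2, fun p hx hy => by
    rw [← h.2 _ (h'.1 p hx hy).1 (h'.1 p hx hy).2, ← h'.2 p hx hy]; group⟩

theorem congr (h : Act j t g f) (k : ∀ p : D × D, In t p.1 → InB p.2 → f p = f' p) : Act j t g f' :=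
  ⟨fun p hx hy => k p hx hy ▸ h.1 p hx hy, fun p hx hy => k p hx hy ▸ h.2 p hx hy⟩

theorem cen (h : Act j t g f) (k : ∀ p : D × D, In t p.1 → InB p.2 → f p = p) (x y : D) (hx : In t x)
    (hy : InB y) : g * j (x, y) = j (x, y) * g := by
  have := h.2 (x, y) hx hy
  rw [k _ hx hy] at this
  exact mul_inv_eq_iff_eq_mul.1 this

theorem at' (h : Act j t g f) (x y x' y' : D) (k : In t x ∧ InB y ∧ f (x, y) = (x', y')) :
    g * j (x, y) * g⁻¹ = j (x', y') := k.2.2 ▸ h.2 (x, y) k.1 k.2.1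

theorem ic (h : Act j t g f) (x y x' y' : D) (k : In t x ∧ InB y ∧ f (x, y) = (x', y')) :
    IsConj (j (x, y)) (j (x', y')) := isConj_iff.2 ⟨g, h.at' x y x' y' k⟩

theorem norm [Finite G] (h : Act j t g f) (U : Subgroup D) (hU : ∀ x, x ∈ U ↔ In t x) :
    g ∈ normalizer (pm j U sB : Set G) := by
  refine mem_normalizer_fintype fun u hu => ?_
  obtain ⟨x, y, hx, hy, rfl⟩ := mem_pm.1 hu
  have hx' := (hU x).1 hx
  exact mem_pm.2 ⟨_, _, (hU _).2 (h.1 (x, y) hx' hy).1, (h.1 (x, y) hx' hy).2, h.2 (x, y) hx' hy⟩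

end Act

theorem rho [Finite G] (h : Cx j s r P) (n : Nt j s) (c : Ce j) {e : D} (he : e = 1 ∨ e = z)
    (hc : IsConj (j (z, 1)) (j (b, e))) : ∃ ρ : G, ρ ^ 3 = 1 ∧ j (1, a) * ρ * (j (1, a))⁻¹ = ρ⁻¹ ∧
      ∃ q, (q = (b, 1) ∨ q = (b * e, b * z)) ∧ Act j b ρ (lin b (z, 1) (e, b) (1, b * z) q) := by
  obtain ⟨η, hn, h1, h2⟩ := h.eta n he hc
  obtain ⟨α, hα⟩ : ∃ α, α = η * j (1, a) * η⁻¹ := ⟨_, rfl⟩
  have a2 : j (1, a) * j (1, a) = 1 := by rw [jm, ← map_one j]; rfl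
  have F1 : α * α = 1 := by rw [hα, ← cmul, a2]; group
  have F2 : ∀ u, α * (η * u * η⁻¹) * α⁻¹ = η * (j (1, a) * u * (j (1, a))⁻¹) * η⁻¹ := fun u => by
    rw [hα]; group
  have F3 : ∀ x y, InB x → InB y → α * j (x, y) * α⁻¹ = j (x, y) ∨ α * j (x, y) * α⁻¹ = j (x * e, y * b) := by
    intro x y hx hy
    obtain ⟨x', y', hx', hy', e'⟩ :=
      mem_pm.1 ((mem_normalizer_iff.1 (inv_mem hn) _).1 (mem_pm.2 ⟨x, y, hx, hy, rfl⟩))
    have e2 : j (x, y) = η * j (x', y') * η⁻¹ := by rw [← e']; group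
    rw [← jm x y e b, e2, F2, jc, one_mul, inv_one, mul_one]
    rcases (by decide : ∀ y, InB y → a * y * a⁻¹ = y ∨ a * y * a⁻¹ = y * z) y' hy' with k | k
    · left; rw [k]
    · right; rw [k, ← h2, ← cmul, jm, mul_one]
  have F4 : α * j (z, 1) * α⁻¹ = j (z, 1) := by
    conv_lhs => rw [← h1, F2, jc]
    exact h1
  have F5 : α * j (e, b) * α⁻¹ = j (e, b) := by
    conv_lhs => rw [← h2, F2, jc]
    exact h2
  have F6 : α * j (1, b) * α⁻¹ = j (1, b) := by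
    rcases he with rfl | rfl
    · exact F5
    · have : j (1, b) = j (z, 1) * j (z, b) := by rw [jm]; rfl
      rw [this, cmul, F4, F5]
  have A0 : Act j b (j (1, a)) _ := act_j b (1, a) (by decide +kernel)
  have inv : j (1, a) * (j (1, a) * α) * (j (1, a))⁻¹ = (j (1, a) * α)⁻¹ := by
    rw [← mul_assoc, a2, one_mul, mul_inv_rev, inv_eq_of_mul_eq_one_right F1]
  have fin : ∀ f, Act j b (j (1, a) * α) f → (∀ p : D × D, In b p.1 → InB p.2 → f (f (f p)) = p) →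
      ∃ ρ : G, ρ ^ 3 = 1 ∧ j (1, a) * ρ * (j (1, a))⁻¹ = ρ⁻¹ ∧ Act j b ρ f := by
    intro f W k
    generalize j (1, a) * α = w at W inv
    obtain ⟨x, y, hx, hy, e3⟩ := c.cB _ ((W.mul (W.mul W)).cen k)
    have k1 : ∀ x : D, InB x → x * x = 1 := by decide
    have e6 : w * (w * w) * (w * (w * w)) = 1 := by rw [e3, jm, k1 x hx, k1 y hy]; exact map_one j
    refine ⟨w * (w * w) * w, ?_, ?_, ((W.mul (W.mul W)).mul W).congr fun p hx hy =>
      k _ (W.1 p hx hy).1 (W.1 p hx hy).2⟩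
    · calc (w * (w * w) * w) ^ 3 = w * (w * w) * (w * (w * w)) * (w * (w * w) * (w * (w * w))) := by
            simp only [pow_succ, pow_zero, one_mul, mul_assoc]
        _ = 1 := by rw [e6, mul_one]
    · rw [cmul, cmul, cmul, inv]; group
  rcases F3 1 z (by decide) (by decide) with k2 | k2 <;> rcases F3 b 1 (by decide) (by decide) with k4 | k4
  · exfalso
    obtain ⟨x, y, hx, hy, e3⟩ := c.cB _ ((act_lin (.inr rfl) F4 k2 F6 k4 (by decide +kernel)).cen (by decide +kernel))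
    obtain ⟨x', y', -, hy', e'⟩ := mem_pm.1 ((mem_normalizer_iff.1 hn (j (1, a))).2 (mem_pm.2 ⟨x, y, hx, hy, hα ▸ e3⟩))
    rw [← (h.eq e').2] at hy'
    exact absurd (show InB a from hy') (by decide)
  · exfalso
    have W := A0.mul (act_lin (.inr rfl) F4 k2 F6 k4 (by rcases he with rfl | rfl <;> decide +kernel))
    generalize j (1, a) * α = w at W
    have h4 : w ^ 4 ∈ pm j sB sB := by
      rw [show w ^ 4 = w * w * (w * w) by simp only [pow_succ, pow_zero, one_mul, mul_assoc]]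
      exact mem_pm.2 (c.cB _ (((W.mul W).mul (W.mul W)).cen (by rcases he with rfl | rfl <;> decide +kernel)))
    have k5 := n.sq h.mtz1 (le_trans (map_le_range j _) h.mtz1.1) (pm2 sB sB)
      (mem_centralizer_singleton_iff.2 (mul_inv_eq_iff_eq_mul.1
        (W.at' z 1 z 1 (by rcases he with rfl | rfl <;> decide +kernel)))) (W.norm sB fun _ => Iff.rfl) h4
      (mem_pm.2 ⟨b, 1, .inr (.inr (.inl rfl)), .inl rfl, rfl⟩)
    have k6 := (W.mul W).at' b 1 b z (by rcases he with rfl | rfl <;> decide +kernel)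
    rw [k5, mul_inv_cancel_right] at k6
    exact absurd (h.eq k6).2 (by decide)
  · obtain ⟨ρ, r1, r2, r3⟩ := fin _ (A0.mul (act_lin (.inr rfl) F4 k2 F6 k4
      (by rcases he with rfl | rfl <;> decide +kernel))) (by rcases he with rfl | rfl <;> decide +kernel)
    exact ⟨ρ, r1, r2, _, .inl rfl, r3.congr (by rcases he with rfl | rfl <;> decide +kernel)⟩
  · obtain ⟨ρ, r1, r2, r3⟩ := fin _ (A0.mul (act_lin (.inr rfl) F4 k2 F6 k4
      (by rcases he with rfl | rfl <;> decide +kernel))) (by rcases he with rfl | rfl <;> decide +kernel)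
    exact ⟨ρ, r1, r2, _, .inr rfl, r3.congr (by rcases he with rfl | rfl <;> decide +kernel)⟩

theorem rhoa (h : Cx j s r P) (c : Ce j) {e : D} (he : e = 1 ∨ e = z) {ρ : G} (r1 : ρ ^ 3 = 1)
    (r2 : j (1, a) * ρ * (j (1, a))⁻¹ = ρ⁻¹) {q : D × D} (hq : q = (b, 1) ∨ q = (b * e, b * z))
    (W : Act j b ρ (lin b (z, 1) (e, b) (1, b * z) q)) :
    ρ * j (a, 1) * ρ⁻¹ = j (a, 1) ∨ ρ * j (a, 1) * ρ⁻¹ = j (a * e, b * z) := by
  have A0 : Act j b (j (a, 1)) _ := act_j b (a, 1) (by decide +kernel)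
  have A1 : Act j b (j (1, a)) _ := act_j b (1, a) (by decide +kernel)
  have a2 : j (a, 1) * j (a, 1) = 1 := by rw [jm, ← map_one j]; rfl
  have ri : ρ * ρ = ρ⁻¹ := eq_inv_of_mul_eq_one_left (by rw [← r1]; simp only [pow_succ, pow_zero, one_mul, mul_assoc])
  obtain ⟨x, y, hx, hy, e1⟩ := c.cB _ ((A0.mul ((W.mul A0).mul (W.mul W))).cen
    (by rcases he with rfl | rfl <;> rcases hq with rfl | rfl <;> decide +kernel))
  rw [ri] at e1
  have e2 : ρ * j (a, 1) * ρ⁻¹ = j (a, 1) * j (x, y) := by rw [← e1, ← mul_assoc, a2, one_mul]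
  have c1 := W.1 (x, y) hx hy
  have e3 : j (a, 1) = j (a, 1) * j (x, y) * (ρ * j (x, y) * ρ⁻¹) * (ρ * (ρ * j (x, y) * ρ⁻¹) * ρ⁻¹) := by
    have s2 : ρ * (ρ * j (a, 1) * ρ⁻¹) * ρ⁻¹ = j (a, 1) * j (x, y) * (ρ * j (x, y) * ρ⁻¹) := by
      rw [e2, cmul, e2]
    calc j (a, 1) = ρ ^ 3 * j (a, 1) * (ρ ^ 3)⁻¹ := by rw [r1]; group
      _ = ρ * (ρ * (ρ * j (a, 1) * ρ⁻¹) * ρ⁻¹) * ρ⁻¹ := by
        simp only [pow_succ, pow_zero, one_mul, mul_assoc, mul_inv_rev]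
      _ = _ := by rw [s2, cmul, cmul ρ (j (a, 1)), e2]
  have e4 : j (a, 1) = j (a, 1) * j (x, y) * (ρ * (j (1, a) * j (x, y) * (j (1, a))⁻¹) * ρ⁻¹) := by
    have k1 : j (1, a) * j (a, 1) * (j (1, a))⁻¹ = j (a, 1) := by rw [jc]; rfl
    have k2 : ρ⁻¹ * j (a, 1) * ρ = j (a, 1) * (j (1, a) * j (x, y) * (j (1, a))⁻¹) := by
      conv_rhs => rw [← k1, ← cmul, ← e2, cmul, cmul, r2, k1]
      rw [show j (1, a) * ρ⁻¹ * (j (1, a))⁻¹ = (j (1, a) * ρ * (j (1, a))⁻¹)⁻¹ by group, r2, inv_inv]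
    rw [← e2, ← cmul, ← k2]; group
  have e5 : ρ * j (a, 1) * ρ⁻¹ * (ρ * j (a, 1) * ρ⁻¹) = 1 := by rw [← cmul, a2]; group
  rw [W.2 _ hx hy, W.2 _ c1.1 c1.2, ← map_mul, ← map_mul, ← map_mul] at e3
  rw [A1.2 _ hx hy, W.2 _ (A1.1 _ hx hy).1 (A1.1 _ hx hy).2, ← map_mul, ← map_mul] at e4
  rw [e2, ← map_mul, ← map_mul, ← map_one j] at e5
  have e6 := h.inj e3
  have e7 := h.inj e4
  have e8 := h.inj e5
  rw [e2, jm]
  have : (a * x = a ∧ 1 * y = 1) ∨ (a * x = a * e ∧ 1 * y = b * z) := by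
    clear e1 e2 e3 e4 e5 c1
    revert x y
    rcases he with rfl | rfl <;> rcases hq with rfl | rfl <;> decide +kernel
  rcases this with ⟨k1, k2⟩ | ⟨k1, k2⟩ <;> rw [k1, k2]
  exacts [.inl rfl, .inr rfl]

end Cfsg.Agent.QW
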