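import Cfsg.Agent.QW.A
import Cfsg.Agent.S0111
import Cfsg.Agent.MR.F2

/-! The involution `s` cannot be fused into `D₈ × D₈`. -/

set_option autoImplicit false

namespace Cfsg.Agent.QW

open Subgroup

namespace PS

theorem d1 : ∀ u : D, u * u = 1 ∨ u * u = z := by decide
theorem d2 : ∀ d e : D, d * d = 1 → d ≠ 1 → d ≠ z → e * d = d * e →
    e = 1 ∨ e * z = 1 ∨ e * d = 1 ∨ e * z * d = 1 := by decide
theorem d3 : ∀ u v : D, u * v = z → v * u = z := by decide
theorem d4 : ∀ x : D, z * x = x * z := by decide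
theorem d5 : ∀ x : D, z * x = 1 → x = z := by decide

variable {G : Type*} [Group G]

theorem cjk (k x : G) : IsConj x (k * x * k⁻¹) := isConj_iff.2 ⟨k, rfl⟩

theorem sq_of {x y : G} (h : IsConj x y) (hx : x * x = 1) : y * y = 1 := by
  obtain ⟨k, rfl⟩ := isConj_iff.1 h
  rw [conj_mul, hx]; simp

end PS

open PS in
theorem ps {G : Type*} [Group G] [Finite G] {j : D × D →* G} {s r : G} {P : Sylow 2 G} [IsSimpleGroup G]
    (hG : ¬ IsMulCommutative G) (h : Cx j s r P) (n : Nt j s)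
    (hz : ∀ x y : D, x * x = 1 → y * y = 1 → x ≠ 1 → y ≠ 1 → IsConj (j (z, z)) (j (x, y)))
    (ht : ∀ x : D, x * x = 1 → x ≠ 1 → IsConj (j (z, 1)) (j (x, 1))) : False := by
  haveI : Fact (Nat.Prime 2) := ⟨Nat.prime_two⟩
  have jm : ∀ x y x' y', j (x, y) * j (x', y') = j (x * x', y * y') := fun _ _ _ _ => (map_mul j _ _).symm
  have j1 : ∀ x y, j (x, y) = 1 → x = 1 ∧ y = 1 := fun x y e =>
    Prod.mk.inj (h.inj (e.trans (map_one j).symm))
  have si : s⁻¹ = s := inv_eq_of_mul_eq_one_right h.ss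
  have zz : j (z, z) * j (z, z) = 1 := by rw [jm]; exact map_one j
  have z1 : j (z, 1) * j (z, 1) = 1 := by rw [jm]; exact map_one j
  have L2 : ∀ x, ¬ IsConj (j (z, z)) (j (x, 1)) := fun x c => by
    have a1 := sq_of c zz
    rw [jm] at a1
    by_cases x1 : x = 1
    · rw [x1, show j (1, 1) = 1 from map_one j, isConj_one_left] at c
      exact absurd (j1 _ _ c).1 (by decide)
    · exact n.tz ((ht x (j1 _ _ a1).1 x1).trans c.symm)
  have L1 : ∀ y, ¬ IsConj (j (z, z)) (j (1, y)) := fun y c =>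
    L2 y (c.trans (h.sw 1 y ▸ cjk s _))
  have L3 : ∀ x y, IsConj (j (z, 1)) (j (x, y)) → x = 1 ∨ y = 1 := fun x y c => by
    have a1 := sq_of c z1
    rw [jm] at a1
    by_contra hc
    push Not at hc
    exact n.tz (c.trans (hz x y (j1 _ _ a1).1 (j1 _ _ a1).2 hc.1 hc.2).symm)
  have L4 : ∀ u v, IsConj (j (z, z)) (j (u * u, v * v)) → j (u * u, v * v) = j (z, z) := fun u v c => by
    rcases d1 u with e | e
    · exact absurd (e ▸ c) (L1 _)
    · rcases d1 v with f | f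
      · exact absurd (f ▸ c) (L2 _)
      · rw [e, f]
  have sc : ∀ x, s * j (x, x) = j (x, x) * s := fun x => mul_inv_eq_iff_eq_mul.1 (h.sw x x)
  have cs : ∀ x, x * x = 1 → IsConj s (j (x, x) * s) := fun x hx => by
    have := cjk (j (x, 1)) s
    rwa [← map_inv, mul_assoc, show s * j (x, 1)⁻¹ = s * j (x⁻¹, 1) * s⁻¹ * s by simp, h.sw, ← mul_assoc, jm,
      inv_eq_of_mul_eq_one_right hx, mul_one, one_mul] at this
  have TP : j.range ≤ (P : Subgroup G) := fun g hg => (h.syl g).2 (Or.inl hg)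
  have sP : s ∈ (P : Subgroup G) := (h.syl s).2 (Or.inr (h.ss ▸ one_mem _))
  have mF : ∀ x, j (x, x) ∈ (P : Subgroup G) ⊓ centralizer {s} := fun x =>
    ⟨TP ⟨_, rfl⟩, mem_centralizer_singleton_iff.2 (sc x).symm⟩
  have pF : ∀ g : G, IsPGroup 2 (((P : Subgroup G) ⊓ centralizer {s}).map (MulAut.conj g).toMonoidHom) :=
    fun g => P.isPGroup'.to_inf_left.map _
  have lF : ∀ g : G, ((P : Subgroup G) ⊓ centralizer {s}).map (MulAut.conj g).toMonoidHom ≤
      centralizer {g * s * g⁻¹} := by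
    rintro g _ ⟨x, ⟨-, hx⟩, rfl⟩
    have hx' : x * s = s * x := mem_centralizer_singleton_iff.1 hx
    refine mem_centralizer_singleton_iff.2 ?_
    show g * x * g⁻¹ * (g * s * g⁻¹) = g * s * g⁻¹ * (g * x * g⁻¹)
    rw [conj_mul, conj_mul, hx']
  have rho : j (.r 1, .r 1) * j (.r 1, .r 1) = j (z, z) := jm _ _ _ _
  have c1 : ¬ IsConj s (j (z, 1)) := fun c => by
    obtain ⟨g, hg⟩ := isConj_iff.1 c
    obtain ⟨m, hm, hk⟩ := n.cj (centralizer {j (z, 1)}) ⟨by
      rintro _ ⟨⟨x, y⟩, rfl⟩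
      rw [mem_centralizer_singleton_iff, jm, jm, d4, mul_one, one_mul], fun e => by
        have := h.sw z 1
        rw [mem_centralizer_singleton_iff.1 e, mul_inv_cancel_right] at this
        exact absurd (Prod.mk.inj (h.inj this)).1 (by decide)⟩ _ (hg ▸ lF g) (pF g)
    have k1 : m * g * s * (m * g)⁻¹ = j (z, 1) := by
      rw [show m * g * s * (m * g)⁻¹ = m * (g * s * g⁻¹) * m⁻¹ by group, hg,
        mem_centralizer_singleton_iff.1 hm, mul_inv_cancel_right]
    have k2 : ∀ x, ∃ u v, m * g * j (x, x) * (m * g)⁻¹ = j (u, v) := fun x => by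
      obtain ⟨⟨u, v⟩, e⟩ := hk _ ⟨_, mF x, rfl⟩
      exact ⟨u, v, by rw [e]; simp [mul_assoc]⟩
    generalize m * g = k at k1 k2
    have k3 : k * j (z, z) * k⁻¹ = j (z, z) := by
      obtain ⟨u, v, e⟩ := k2 (.r 1)
      have e2 : k * j (z, z) * k⁻¹ = j (u * u, v * v) := by rw [← rho, ← conj_mul, e, jm]
      rw [e2]
      exact L4 u v (e2 ▸ cjk k _)
    obtain ⟨u, v, e⟩ := k2 a
    have a1 : IsConj (j (z, z)) (j (u, v)) := (hz a a (by decide) (by decide) (by decide) (by decide)).trans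
      (e ▸ cjk k _)
    have a2 : IsConj (j (z, 1)) (j (z * u, 1 * v)) := by
      rw [← jm, ← e]
      nth_rewrite 2 [← k1]
      rw [conj_mul, sc]
      exact c.symm.trans ((cs a (by decide)).trans (cjk k _))
    rcases L3 _ _ a2 with f | f
    · refine L1 (z * v) ?_
      rw [← f, ← jm, ← e]
      nth_rewrite 2 [← k3]
      rw [conj_mul, jm]
      exact (hz _ _ (by decide) (by decide) (by decide) (by decide)).trans (cjk k _)
    · rw [one_mul] at f
      exact L2 u (f ▸ a1)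
  have ZP : ∀ p ∈ (P : Subgroup G), p * j (z, z) = j (z, z) * p := fun p hp => by
    rcases (h.syl p).1 hp with ⟨⟨x, y⟩, rfl⟩ | ⟨⟨x, y⟩, e⟩
    · rw [jm, jm, d4, d4]
    · rw [show p = j (x, y) * s by rw [e, mul_assoc, h.ss, mul_one], mul_assoc, sc, ← mul_assoc, ← mul_assoc, jm, jm,
        d4, d4]
  have c2 : ¬ IsConj s (j (z, z)) := fun c => by
    obtain ⟨g, hg⟩ := isConj_iff.1 c
    obtain ⟨m, hm, hk⟩ := MR.F2.conj_into P (centralizer {j (z, z)})
      (fun p hp => mem_centralizer_singleton_iff.2 (ZP p hp)) _ (pF g) (hg ▸ lF g)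
    have k1 : m * g * s * (m * g)⁻¹ = j (z, z) := by
      rw [show m * g * s * (m * g)⁻¹ = m * (g * s * g⁻¹) * m⁻¹ by group, hg,
        mem_centralizer_singleton_iff.1 hm, mul_inv_cancel_right]
    have k2 : ∀ x, m * g * j (x, x) * (m * g)⁻¹ ∈ j.range ∨ ∃ u v, m * g * j (x, x) * (m * g)⁻¹ = j (u, v) * s :=
      fun x => by
      have := hk _ ⟨_, mF x, rfl⟩
      rw [show m * (MulAut.conj g).toMonoidHom (j (x, x)) * m⁻¹ = m * g * j (x, x) * (m * g)⁻¹ by
        simp [mul_assoc]] at this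
      refine ((h.syl _).1 this).imp_right ?_
      rintro ⟨⟨u, v⟩, e⟩
      exact ⟨u, v, by rw [e, mul_assoc _ s, h.ss, mul_one]⟩
    generalize m * g = k at k1 k2
    have nw : k * j (z, z) * k⁻¹ ≠ j (z, z) := fun e => by
      nth_rewrite 2 [← k1] at e
      exact h.sn ⟨_, by simpa using e⟩
    have js : ∀ u v u' v', j (u, v) * s * (j (u', v') * s) = j (u * v', v * u') := fun u v u' v' => by
      rw [← jm, ← h.sw u' v', si]; group
    obtain ⟨⟨u, v⟩, e⟩ | ⟨u, v, e⟩ := k2 (.r 1)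
    · have e2 : k * j (z, z) * k⁻¹ = j (u * u, v * v) := by rw [← rho, ← conj_mul, ← e, jm]
      exact nw (e2.trans (L4 u v (e2 ▸ cjk k _)))
    have e2 : k * j (z, z) * k⁻¹ = j (u * v, v * u) := by rw [← rho, ← conj_mul, e, js]
    have w1 : IsConj (j (z, z)) (j (u * v, v * u)) := e2 ▸ cjk k _
    have w2 := sq_of w1 zz
    rw [jm] at w2
    obtain ⟨c0, hc, hc1, hc2, p, q, f⟩ : ∃ c0 : D, c0 * c0 = 1 ∧ c0 ≠ 1 ∧ c0 * z ≠ 1 ∧
        ∃ p q, k * j (c0, c0) * k⁻¹ = j (p, q) := by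
      obtain ⟨⟨p, q⟩, f⟩ | ⟨p, q, f⟩ := k2 a
      · exact ⟨a, by decide, by decide, by decide, p, q, f.symm⟩
      · exact ⟨a * .r 1, by decide, by decide, by decide, p * v, q * u, by rw [← jm a a, ← conj_mul, f, e, js]⟩
    have hcz : c0 * z * (c0 * z) = 1 := by
      rw [mul_assoc, ← mul_assoc z, d4, mul_assoc, ← mul_assoc, hc, one_mul]; decide
    have cm : p * (u * v) = u * v * p := by
      have : j (p, q) * j (u * v, v * u) = j (u * v, v * u) * j (p, q) := by
        rw [← f, ← e2, conj_mul, conj_mul, jm, jm, d4]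
      rw [jm, jm] at this
      exact (Prod.mk.inj (h.inj this)).1
    rcases d2 (u * v) p (j1 _ _ w2).1 (fun t => L1 _ (t ▸ w1)) (fun t => nw (by rw [e2, d3 u v t, t])) cm
      with t | t | t | t
    · refine L1 q ?_
      rw [← t, ← f]
      exact (hz _ _ hc hc hc1 hc1).trans (cjk k _)
    · refine L1 (q * z) ?_
      rw [← t, ← jm, ← f]
      nth_rewrite 2 [← k1]
      rw [conj_mul]
      exact c.symm.trans ((cs c0 hc).trans (cjk k _))
    · refine L1 (q * (v * u)) ?_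
      rw [← t, ← jm, ← f, ← e2, conj_mul, jm]
      exact (hz _ _ hcz hcz hc2 hc2).trans (cjk k _)
    · refine L1 (q * z * (v * u)) ?_
      rw [← t, ← jm, ← jm, ← f, ← e2]
      nth_rewrite 2 [← k1]
      rw [conj_mul, conj_mul, mul_assoc _ s, sc, ← mul_assoc (j (c0, c0)), jm]
      exact c.symm.trans ((cs _ hcz).trans (cjk k _))
  have so : orderOf s = 2 := orderOf_eq_prime (by rw [sq, h.ss]) fun e => h.sn (e ▸ one_mem _)
  have ri : j.range.relIndex (P : Subgroup G) = 2 := by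
    rw [relIndex, index_eq_two_iff]
    refine ⟨⟨s, sP⟩, fun g => ?_⟩
    simp only [mem_subgroupOf, coe_mul]
    rcases (h.syl g).1 g.2 with e | e
    · exact Or.inr ⟨e, fun f => h.sn ((mul_mem_cancel_left e).1 f)⟩
    · exact Or.inl ⟨e, fun f => h.sn ((mul_mem_cancel_left f).1 e)⟩
  obtain ⟨M, hM, hi, -⟩ | ⟨g, ⟨x, y⟩, e⟩ := S0111.result P j.range TP ri s so sP h.sn
  · rcases hM.eq_bot_or_eq_top with rfl | rfl
    · rw [index_bot] at hi
      haveI : IsCyclic G := isCyclic_of_prime_card (p := 2) hi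
      exact hG inferInstance
    · rw [index_top] at hi; omega
  · have c : IsConj s (j (x, y)) := e ▸ cjk g s
    have a1 := sq_of c h.ss
    rw [jm] at a1
    obtain ⟨hx, hy⟩ := j1 _ _ a1
    by_cases x1 : x = 1
    · by_cases y1 : y = 1
      · rw [x1, y1, show j (1, 1) = 1 from map_one j, isConj_one_left] at c
        exact h.sn (c ▸ one_mem _)
      · rw [x1, ← h.sw] at c
        exact c1 (c.trans ((cjk s _).symm.trans (ht y hy y1).symm))
    · by_cases y1 : y = 1
      · exact c1 ((y1 ▸ c).trans (ht x hx x1).symm)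
      · exact c2 (c.trans (hz x y hx hy x1 y1).symm)

end Cfsg.Agent.QW
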