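import Cfsg.Agent.QW.A

/-! Piece SET: coordinates from a maximal 2-local subgroup `S₄ ≀ 2`. -/

set_option autoImplicit false

namespace Cfsg.Agent.QW

open Subgroup

namespace PSt

abbrev S4 : Type := Equiv.Perm (Fin 4)

def δf : D → S4
  | .r i => Equiv.addRight (show Fin 4 from i)
  | .sr i => Equiv.subLeft (1 - (show Fin 4 from i))

def δ : D →* S4 := MonoidHom.mk' δf (by decide +kernel)

def ρ : S4 := ⟨![0, 3, 1, 2], ![0, 2, 3, 1], by decide, by decide⟩

theorem δ_inj : ∀ x y : D, δ x = δ y → x = y := by decide +kernel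
theorem ρ3 : ρ ^ 3 = 1 := by decide +kernel
theorem ρ1 : ρ ≠ 1 := by decide +kernel
theorem ρz : ρ * δ z * ρ⁻¹ = δ a := by decide +kernel
theorem ρa : ρ * δ a * ρ⁻¹ = δ (a * z) := by decide +kernel
theorem ρb : δ b * ρ * (δ b)⁻¹ = ρ⁻¹ := by decide +kernel
theorem nAσ : ∀ σ : S4, ∀ x : D, InA x → ∃ x', InA x' ∧ σ * δ x * σ⁻¹ = δ x' := by decide +kernel
theorem nDσ : ∀ σ : S4, (∀ x : D, ∃ x', σ * δ x * σ⁻¹ = δ x') → ∃ d, σ = δ d := by decide +kernel

abbrev Ω : Type := Fin 4 ⊕ Fin 4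
def sw : Equiv.Perm Ω := Equiv.sumComm _ _
abbrev c : S4 × S4 →* Equiv.Perm Ω := Equiv.Perm.sumCongrHom _ _
abbrev L : Set Ω := Set.range Sum.inl
abbrev R : Set Ω := Set.range Sum.inr

theorem sw_sw : sw * sw = 1 := by
  ext x; rcases x with x | x <;> rfl

theorem sw_c (x y : S4) : sw * c (x, y) = c (y, x) * sw := by
  ext t; rcases t with t | t <;> rfl

open Pointwise in
theorem c_mem (p : S4 × S4) : c p ∈ Cfsg.blockStabilizerS4wr2 := by
  obtain ⟨x, y⟩ := p
  have h1 : c (x, y) • L = L := by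
    ext t
    simp only [Set.mem_smul_set, Set.mem_range]
    constructor
    · rintro ⟨_, ⟨u, rfl⟩, rfl⟩; exact ⟨x u, rfl⟩
    · rintro ⟨u, rfl⟩; exact ⟨Sum.inl (x.symm u), ⟨_, rfl⟩, by simp [Equiv.Perm.sumCongrHom]⟩
  have h2 : c (x, y) • R = R := by
    ext t
    simp only [Set.mem_smul_set, Set.mem_range]
    constructor
    · rintro ⟨_, ⟨u, rfl⟩, rfl⟩; exact ⟨y u, rfl⟩
    · rintro ⟨u, rfl⟩; exact ⟨Sum.inr (y.symm u), ⟨_, rfl⟩, by simp [Equiv.Perm.sumCongrHom]⟩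
  rw [Cfsg.blockStabilizerS4wr2, MulAction.mem_stabilizer_iff]
  change (fun X : Set Ω => c (x, y) • X) '' {L, R} = {L, R}
  rw [Set.image_pair, h1, h2]

open Pointwise in
theorem sw_mem : sw ∈ Cfsg.blockStabilizerS4wr2 := by
  have h1 : sw • L = R := by
    ext t
    simp only [Set.mem_smul_set, Set.mem_range]
    constructor
    · rintro ⟨_, ⟨u, rfl⟩, rfl⟩; exact ⟨u, rfl⟩
    · rintro ⟨u, rfl⟩; exact ⟨Sum.inl u, ⟨_, rfl⟩, rfl⟩
  have h2 : sw • R = L := by
    ext t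
    simp only [Set.mem_smul_set, Set.mem_range]
    constructor
    · rintro ⟨_, ⟨u, rfl⟩, rfl⟩; exact ⟨u, rfl⟩
    · rintro ⟨u, rfl⟩; exact ⟨Sum.inr u, ⟨_, rfl⟩, rfl⟩
  rw [Cfsg.blockStabilizerS4wr2, MulAction.mem_stabilizer_iff]
  change (fun X : Set Ω => sw • X) '' {L, R} = {L, R}
  rw [Set.image_pair, h1, h2, Set.pair_comm]

open Pointwise in
theorem mem_W {g : Equiv.Perm Ω} (hg : g ∈ Cfsg.blockStabilizerS4wr2) :
    (∃ p, g = c p) ∨ ∃ p, g * sw = c p := by
  rw [Cfsg.blockStabilizerS4wr2, MulAction.mem_stabilizer_iff] at hg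
  change (fun X : Set Ω => g • X) '' {L, R} = {L, R} at hg
  rw [Set.image_pair] at hg
  have hL : L ∈ ({g • L, g • R} : Set (Set Ω)) := by rw [hg]; exact Or.inl rfl
  rcases hL with h | h
  · left
    have : Set.MapsTo g L L := fun t ht => by rw [h]; exact ⟨t, ht, rfl⟩
    obtain ⟨p, hp⟩ := Equiv.Perm.mem_sumCongrHom_range_of_perm_mapsTo_inl this
    exact ⟨p, hp.symm⟩
  · right
    have h' : L = g • R := h
    have : Set.MapsTo (g * sw) L L := by
      rintro _ ⟨u, rfl⟩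
      rw [h']; exact ⟨Sum.inr u, ⟨u, rfl⟩, rfl⟩
    obtain ⟨p, hp⟩ := Equiv.Perm.mem_sumCongrHom_range_of_perm_mapsTo_inl this
    exact ⟨p, hp.symm⟩

theorem sw_ne (p : S4 × S4) : c p ≠ sw := by
  intro h
  have := congrArg (fun f : Equiv.Perm Ω => f (Sum.inl 0)) h
  obtain ⟨x, y⟩ := p
  exact absurd (show (Sum.inl (x 0) : Ω) = Sum.inr 0 from this) (by simp)

variable {G : Type*} [Group G] [Finite G]

theorem card2 (H K : Subgroup G) (s : G) (hs : s ∉ H) (hK : ∀ g, g ∈ K ↔ g ∈ H ∨ g * s ∈ H) :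
    Nat.card K = 2 * Nat.card H := by
  have e : (K : Set G) = (H : Set G) ∪ (fun g => g * s⁻¹) '' (H : Set G) := by
    ext g
    simp only [SetLike.mem_coe, hK, Set.mem_union, Set.mem_image]
    constructor
    · rintro (h | h)
      · exact Or.inl h
      · exact Or.inr ⟨_, h, by group⟩
    · rintro (h | ⟨u, hu, rfl⟩)
      · exact Or.inl h
      · exact Or.inr (by simpa using hu)
  have d : Disjoint (H : Set G) ((fun g => g * s⁻¹) '' (H : Set G)) := by
    rw [Set.disjoint_left]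
    rintro g hg ⟨u, hu, rfl⟩
    apply hs
    have := H.mul_mem (H.inv_mem hg) hu
    simpa using this
  have c1 : Nat.card K = (K : Set G).ncard := rfl
  have c2 : Nat.card H = (H : Set G).ncard := rfl
  rw [c1, c2, e, Set.ncard_union_eq d, Set.ncard_image_of_injective _ (mul_left_injective _)]
  ring

theorem exists_Φ (M : Subgroup G) (hW : Nonempty (↥M ≃* ↥Cfsg.blockStabilizerS4wr2)) :
    ∃ (Φ : S4 × S4 →* G) (s : G), Function.Injective Φ ∧ s * s = 1 ∧
      (∀ x y, s * Φ (x, y) = Φ (y, x) * s) ∧ s ∉ Φ.range ∧ ∀ g, g ∈ M ↔ g ∈ Φ.range ∨ g * s ∈ Φ.range := by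
  obtain ⟨e⟩ := hW
  let φ : Cfsg.blockStabilizerS4wr2 →* G := M.subtype.comp e.symm.toMonoidHom
  have φi : Function.Injective φ := M.subtype_injective.comp e.symm.injective
  have φm : ∀ w, φ w ∈ M := fun w => (e.symm w).2
  let c' : S4 × S4 →* Cfsg.blockStabilizerS4wr2 := c.codRestrict _ c_mem
  let s' : Cfsg.blockStabilizerS4wr2 := ⟨sw, sw_mem⟩
  refine ⟨φ.comp c', φ s', φi.comp ?_, ?_, ?_, ?_, ?_⟩
  · intro p q h
    exact Equiv.Perm.sumCongrHom_injective (congrArg Subtype.val h)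
  · rw [← map_mul, ← map_one φ]; congr 1; exact Subtype.ext sw_sw
  · intro x y
    change φ s' * φ (c' (x, y)) = φ (c' (y, x)) * φ s'
    rw [← map_mul, ← map_mul]; congr 1; exact Subtype.ext (sw_c x y)
  · rintro ⟨p, hp⟩
    exact sw_ne p (congrArg Subtype.val (φi hp))
  · intro g
    constructor
    · intro hg
      have hg' : φ (e ⟨g, hg⟩) = g := by simp [φ]
      rcases mem_W (e ⟨g, hg⟩).2 with ⟨p, hp⟩ | ⟨p, hp⟩
      · left; refine ⟨p, ?_⟩
        rw [← hg']; change φ (c' p) = _; congr 1; exact Subtype.ext hp.symm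
      · right; refine ⟨p, ?_⟩
        rw [← hg', ← map_mul]; change φ (c' p) = _; congr 1; exact Subtype.ext hp.symm
    · rintro (⟨p, rfl⟩ | ⟨p, hp⟩)
      · exact φm _
      · have : g = φ (c' p) * (φ s')⁻¹ := by rw [eq_mul_inv_iff_mul_eq]; exact hp.symm
        rw [this]; exact M.mul_mem (φm _) (M.inv_mem (φm _))

def AA : Subgroup (D × D) where
  carrier := {p | InA p.1 ∧ InA p.2}
  mul_mem' := by
    have : ∀ x y : D, InA x → InA y → InA (x * y) := by decide +kernel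
    intro p q hp hq
    exact ⟨this _ _ hp.1 hq.1, this _ _ hp.2 hq.2⟩
  one_mem' := ⟨Or.inl rfl, Or.inl rfl⟩
  inv_mem' := by
    have : ∀ x : D, InA x → InA x⁻¹ := by decide +kernel
    intro p hp
    exact ⟨this _ hp.1, this _ hp.2⟩

end PSt

open PSt in
theorem exists_cx {G : Type*} [Group G] [Finite G] (T : Sylow 2 G) (M : Subgroup G)
    (hM : M ∈ Cfsg.maxTwoLocalsContaining (T : Subgroup G))
    (hW : Nonempty (↥M ≃* ↥Cfsg.blockStabilizerS4wr2)) :
    ∃ (j : D × D →* G) (s r : G) (P : Sylow 2 G), Cx j s r P := by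
  obtain ⟨Φ, s, Φi, ss, sw, sn, hMm⟩ := exists_Φ M hW
  let j : D × D →* G := Φ.comp (δ.prodMap δ)
  have hj : ∀ x y, j (x, y) = Φ (δ x, δ y) := fun _ _ => rfl
  have ji : Function.Injective j := by
    rintro ⟨x, y⟩ ⟨x', y'⟩ h
    have := Φi (show Φ (δ x, δ y) = Φ (δ x', δ y') from h)
    rw [Prod.mk.injEq] at this
    rw [δ_inj _ _ this.1, δ_inj _ _ this.2]
  have si : s⁻¹ = s := inv_eq_of_mul_eq_one_right ss
  have sw' : ∀ x y, s * Φ (x, y) * s⁻¹ = Φ (y, x) := fun x y => by rw [sw, mul_inv_cancel_right]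
  have jn : s ∉ j.range := by
    rintro ⟨⟨x, y⟩, h⟩; exact sn ⟨_, h⟩
  have js : ∀ g ∈ j.range, s * g * s⁻¹ ∈ j.range := by
    rintro _ ⟨⟨x, y⟩, rfl⟩; exact ⟨(y, x), by rw [hj, hj, sw']⟩
  let P0 : Subgroup G :=
    { carrier := {g | g ∈ j.range ∨ g * s ∈ j.range}
      one_mem' := Or.inl (one_mem _)
      mul_mem' := by
        rintro u v (hu | hu) (hv | hv)
        · exact Or.inl (mul_mem hu hv)
        · exact Or.inr (by rw [mul_assoc]; exact mul_mem hu hv)
        · right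
          have := mul_mem hu (js _ hv)
          have e : u * s * (s * v * s⁻¹) = u * (s * s) * v * s⁻¹ := by group
          rwa [e, ss, mul_one, si] at this
        · left
          have := mul_mem hu (js _ hv)
          have e : u * s * (s * (v * s) * s⁻¹) = u * (s * s) * v := by group
          rwa [e, ss, mul_one] at this
      inv_mem' := by
        rintro u (hu | hu)
        · exact Or.inl (inv_mem hu)
        · right
          have := js _ (inv_mem hu)
          have e : s * (u * s)⁻¹ * s⁻¹ = u⁻¹ * s⁻¹ := by group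
          rwa [e, si] at this }
  have cj : Nat.card j.range = 64 := by
    rw [← Nat.card_congr (MonoidHom.ofInjective ji).toEquiv, Nat.card_prod, DihedralGroup.nat_card]
  have cΦ : Nat.card Φ.range = 576 := by
    rw [← Nat.card_congr (MonoidHom.ofInjective Φi).toEquiv, Nat.card_prod, Nat.card_perm]
    simp [Nat.factorial]
  have cP : Nat.card P0 = 128 := by rw [card2 j.range P0 s jn (fun _ => Iff.rfl), cj]
  have cM : Nat.card M = 1152 := by rw [card2 Φ.range M s sn hMm, cΦ]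
  have pP : IsPGroup 2 P0 := IsPGroup.of_card (n := 7) (by rw [cP]; norm_num)
  obtain ⟨P, hP⟩ := pP.exists_le_sylow
  have cT : Nat.card P ≤ 128 := by
    have h1 : Nat.card P = Nat.card T := by rw [P.card_eq_multiplicity, T.card_eq_multiplicity]
    have h2 : Nat.card T ∣ 128 * 9 := by
      have := Subgroup.card_dvd_of_le hM.2
      rwa [cM] at this
    rw [h1]
    rw [T.card_eq_multiplicity] at h2 ⊢
    exact Nat.le_of_dvd (by norm_num)
      (Nat.Coprime.dvd_of_dvd_mul_right (Nat.Coprime.pow_left _ (by norm_num)) h2)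
  have eP : P0 = (P : Subgroup G) := Subgroup.eq_of_le_of_card_ge hP (by rw [cP]; exact cT)
  have hsyl : ∀ g, g ∈ (P : Subgroup G) ↔ g ∈ j.range ∨ g * s ∈ j.range := fun g => by
    rw [← eP]; rfl
  have nrm : ∀ g : G, (∀ x y, InA x → InA y → ∃ x' y', InA x' ∧ InA y' ∧ g * j (x, y) * g⁻¹ = j (x', y')) →
      g ∈ normalizer ((AA.map j : Subgroup G) : Set G) := by
    intro g hg
    apply Subgroup.mem_normalizer_fintype
    rintro _ ⟨⟨x, y⟩, hp, rfl⟩
    obtain ⟨x', y', h1, h2, h3⟩ := hg x y hp.1 hp.2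
    exact ⟨(x', y'), ⟨h1, h2⟩, h3.symm⟩
  have nΦ : ∀ g ∈ Φ.range, g ∈ normalizer ((AA.map j : Subgroup G) : Set G) := by
    rintro _ ⟨⟨σ, τ⟩, rfl⟩
    apply nrm
    intro x y hx hy
    obtain ⟨x', h1, e1⟩ := nAσ σ x hx
    obtain ⟨y', h2, e2⟩ := nAσ τ y hy
    refine ⟨x', y', h1, h2, ?_⟩
    rw [hj, hj, ← map_inv, ← map_mul, ← map_mul, ← e1, ← e2]; rfl
  have ns : s ∈ normalizer ((AA.map j : Subgroup G) : Set G) :=
    nrm s fun x y hx hy => ⟨y, x, hy, hx, by rw [hj, hj, sw']⟩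
  have hN : normalizer ((AA.map j : Subgroup G) : Set G) = M := by
    apply hM.1.2
    · refine ⟨AA.map j, ?_, ?_, rfl⟩
      · exact pP.to_le (fun g hg => Or.inl (Subgroup.map_le_range _ _ hg))
      · intro h
        have : j (z, 1) ∈ AA.map j := ⟨(z, 1), ⟨Or.inr (Or.inl rfl), Or.inl rfl⟩, rfl⟩
        rw [h, mem_bot, ← map_one j] at this
        exact absurd (ji this) (by decide)
    · intro g hg
      rcases (hMm g).1 hg with h | h
      · exact nΦ g h
      · have := mul_mem (nΦ _ h) (inv_mem ns)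
        rwa [mul_inv_cancel_right] at this
  have key : ∀ g ∈ Φ.range, (∀ t ∈ j.range, g * t * g⁻¹ ∈ j.range) → g ∈ j.range := by
    rintro _ ⟨⟨σ, τ⟩, rfl⟩ h
    have h' : ∀ x y, ∃ x' y', σ * δ x * σ⁻¹ = δ x' ∧ τ * δ y * τ⁻¹ = δ y' := by
      intro x y
      obtain ⟨⟨x', y'⟩, e⟩ := h _ ⟨(x, y), rfl⟩
      rw [hj, hj, ← map_inv, ← map_mul, ← map_mul] at e
      have := Φi e
      exact ⟨x', y', (congrArg Prod.fst this).symm, (congrArg Prod.snd this).symm⟩
    obtain ⟨d, rfl⟩ := nDσ σ fun x => by obtain ⟨x', _, e, _⟩ := h' x 1; exact ⟨x', e⟩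
    obtain ⟨d', rfl⟩ := nDσ τ fun y => by obtain ⟨_, y', _, e⟩ := h' 1 y; exact ⟨y', e⟩
    exact ⟨(d, d'), rfl⟩
  refine ⟨j, s, Φ (ρ, 1), P, ji, ss, fun x y => by rw [hj, hj, sw'], jn, ?_, ?_, ?_, ?_, ?_, ?_, hsyl, ?_⟩
  · rw [orderOf_injective Φ Φi]
    have : Fact (Nat.Prime 3) := ⟨by norm_num⟩
    apply orderOf_eq_prime
    · ext1
      · exact ρ3
      · simp
    · intro h; exact ρ1 (congrArg Prod.fst h)
  · intro y
    rw [hj, ← map_mul, ← map_mul]; congr 1; simp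
  · rw [sw', ← map_mul, ← map_mul]; congr 1
  · rw [hj, hj, ← map_inv, ← map_mul, ← map_mul, ← ρz]; congr 1
  · rw [hj, hj, ← map_inv, ← map_mul, ← map_mul, ← ρa]; congr 1
  · rw [hj, ← map_inv, ← map_inv, ← map_mul, ← map_mul]; congr 1; simp [ρb]
  · intro g hg hn
    have gM : g ∈ M := hN ▸ nrm g hg
    have hn' : ∀ t ∈ j.range, g * t * g⁻¹ ∈ j.range := fun t ht => (mem_normalizer_iff.1 hn t).1 ht
    rw [hsyl]
    rcases (hMm g).1 gM with h | h
    · exact Or.inl (key g h hn')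
    · refine Or.inr (key _ h fun t ht => ?_)
      have := hn' _ (js t ht)
      have e : g * (s * t * s⁻¹) * g⁻¹ = g * s * t * (g * s)⁻¹ := by group
      rwa [e] at this

end Cfsg.Agent.QW
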